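import Cfsg.Agent.Lib.Involution.StronglyEmbedded
import Cfsg.Agent.Lib.Coprime.Abelian
import Cfsg.Agent.S1224
import Cfsg.Agent.S1225

/-!
Groups with abelian involution centralisers: the Sylow 2-normaliser is strongly embedded and every
proper overgroup of it again has this shape (helper3).
-/

set_option autoImplicit false

namespace Cfsg.Agent.Lib.AbInvCent

open Subgroup Cfsg.Agent.Lib.Involution

universe u

variable {G : Type u} [Group G]

/-- All involution centralisers are abelian; the Sylow 2-subgroup is neither cyclic nor normal. -/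
structure Hyp [Finite G] (S : Sylow 2 G) : Prop where
  hab : ∀ t : G, orderOf t = 2 → ∀ a b : G, a * t = t * a → b * t = t * b → a * b = b * a
  nc : ¬ IsCyclic (S : Subgroup G)
  nn : ¬ (S : Subgroup G).Normal

namespace Hyp

variable [Finite G] {S : Sylow 2 G} (h : Hyp S)
include h

local notation "MS" => normalizer ((S : Subgroup G) : Set G)
local notation "AS" => centralizer ((S : Subgroup G) : Set G)

lemma ne_bot : (S : Subgroup G) ≠ ⊥ := fun e => h.nc (by
  haveI : Subsingleton (S : Subgroup G) :=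
    (Nat.card_eq_one_iff_unique.1 (by rw [e, Subgroup.card_bot])).1
  infer_instance)

lemma exists_invol : ∃ t ∈ (S : Subgroup G), orderOf t = 2 ∧ ∀ s ∈ (S : Subgroup G), s * t = t * s := by
  haveI : Fact (Nat.Prime 2) := ⟨Nat.prime_two⟩
  haveI : Nontrivial (S : Subgroup G) := (nontrivial_iff_ne_bot _).2 h.ne_bot
  haveI := S.isPGroup'.center_nontrivial
  obtain ⟨z, hz⟩ := exists_prime_orderOf_dvd_card' (G := center (S : Subgroup G)) 2
    ((S.isPGroup'.to_subgroup _).exists_card_eq.elim fun i hi => by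
      rw [hi]
      exact dvd_pow_self 2 fun e => by
        rw [e, pow_zero] at hi
        exact (Finite.one_lt_card (α := center (S : Subgroup G))).ne' hi)
  refine ⟨((z : (S : Subgroup G)) : G), (z : (S : Subgroup G)).2, by rw [orderOf_coe, orderOf_coe, hz],
    fun s hs => ?_⟩
  exact congrArg Subtype.val (mem_center_iff.1 z.2 ⟨s, hs⟩)

lemma comm {a b : G} (ha : a ∈ (S : Subgroup G)) (hb : b ∈ (S : Subgroup G)) : a * b = b * a := by
  obtain ⟨t, -, ht, hc⟩ := h.exists_invol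
  exact h.hab t ht a b (hc a ha) (hc b hb)

lemma S_le_A : (S : Subgroup G) ≤ AS := fun x hx =>
  mem_centralizer_iff.2 fun y hy => h.comm hy hx

omit h in
lemma A_le_M : AS ≤ MS := fun g hg => by
  rw [mem_normalizer_iff]
  intro x
  refine ⟨fun hx => ?_, fun hx => ?_⟩
  · rw [← mem_centralizer_iff.1 hg x hx, mul_inv_cancel_right]
    exact hx
  · have e := mem_centralizer_iff.1 hg _ hx
    have : x = g * x * g⁻¹ := by
      calc x = g⁻¹ * (g * x * g⁻¹ * g) := by group
        _ = g⁻¹ * (g * (g * x * g⁻¹)) := by rw [e]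
        _ = g * x * g⁻¹ := by group
    rw [this]
    exact hx

omit h in
lemma conj_mem_A {m a : G} (hm : m ∈ MS) (ha : a ∈ AS) : m * a * m⁻¹ ∈ AS := by
  refine mem_centralizer_iff.2 fun y hy => ?_
  have hy' : m⁻¹ * y * m ∈ (S : Subgroup G) := by
    have := (mem_normalizer_iff.1 (inv_mem hm) y).1 hy
    rwa [inv_inv] at this
  calc y * (m * a * m⁻¹) = m * ((m⁻¹ * y * m) * a) * m⁻¹ := by group
    _ = m * (a * (m⁻¹ * y * m)) * m⁻¹ := by rw [mem_centralizer_iff.1 ha _ hy']
    _ = _ := by group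

omit h in
lemma conj_mem_A' {m a : G} (hm : m ∈ MS) (ha : a ∈ AS) : m⁻¹ * a * m ∈ AS := by
  simpa using conj_mem_A (inv_mem hm) ha

lemma mem_A_iff {t g : G} (ht : orderOf t = 2) (htS : t ∈ (S : Subgroup G)) :
    g ∈ AS ↔ g * t = t * g :=
  ⟨fun hg => (mem_centralizer_iff.1 hg t htS).symm, fun hg =>
    mem_centralizer_iff.2 fun _ hs => h.hab t ht _ g (h.comm hs htS) hg⟩

lemma comm_A {a b : G} (ha : a ∈ AS) (hb : b ∈ AS) : a * b = b * a := by
  obtain ⟨t, htS, ht, -⟩ := h.exists_invol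
  exact h.hab t ht a b ((h.mem_A_iff ht htS).1 ha) ((h.mem_A_iff ht htS).1 hb)

omit h in
lemma mem_S_of_invol {t : G} (ht : orderOf t = 2) (htM : t ∈ MS) : t ∈ (S : Subgroup G) := by
  haveI : Fact (Nat.Prime 2) := ⟨Nat.prime_two⟩
  have h2 : IsPGroup 2 (zpowers t) :=
    IsPGroup.of_card (n := 1) (by rw [Nat.card_zpowers, ht, pow_one])
  have := S.is_maximal' (IsPGroup.to_sup_of_normal_left' S.isPGroup' h2 (zpowers_le.2 htM)) le_sup_left
  rw [← this]
  exact mem_sup_right (mem_zpowers t)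

lemma invol_mem_A {t : G} (ht : orderOf t = 2) (htM : t ∈ MS) : t ∈ AS :=
  h.S_le_A (mem_S_of_invol ht htM)

lemma se : Cfsg.IsStronglyEmbedded MS := by
  haveI : Fact (Nat.Prime 2) := ⟨Nat.prime_two⟩
  have hne : MS ≠ ⊤ := fun ht => h.nn (normalizer_eq_top_iff.1 ht)
  have heven : Even (Nat.card MS) := by
    obtain ⟨t, htS, ht, -⟩ := h.exists_invol
    have hd := Subgroup.orderOf_dvd_natCard MS ((S : Subgroup G).le_normalizer htS)
    rw [ht] at hd
    exact even_iff_two_dvd.2 hd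
  rw [se_iff_forall hne heven]
  intro s g hs h1 h2
  have hsS := mem_S_of_invol hs h1
  have ho : orderOf (g⁻¹ * s * g) = 2 := by simpa using (orderOf_conj g⁻¹ s).trans hs
  have hoS := mem_S_of_invol ho h2
  have key : ∀ x ∈ (S : Subgroup G), g * x * g⁻¹ ∈ (S : Subgroup G) := fun x hx => by
    have hxA : g * x * g⁻¹ ∈ AS := (h.mem_A_iff hs hsS).2 (by
      calc g * x * g⁻¹ * s = g * (x * (g⁻¹ * s * g)) * g⁻¹ := by group
        _ = s * (g * x * g⁻¹) := by rw [h.comm hx hoS]; group)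
    obtain ⟨k, hk⟩ := S.isPGroup' ⟨x, hx⟩
    have hk' : x ^ 2 ^ k = 1 := congrArg Subtype.val hk
    have h2g : IsPGroup 2 (zpowers (g * x * g⁻¹)) := by
      obtain ⟨i, -, hi⟩ := (Nat.dvd_prime_pow Nat.prime_two).1 (orderOf_dvd_of_pow_eq_one hk')
      exact IsPGroup.of_card (n := i) (by rw [Nat.card_zpowers, orderOf_conj, hi])
    have := S.is_maximal'
      (IsPGroup.to_sup_of_normal_left' S.isPGroup' h2g (zpowers_le.2 (A_le_M hxA))) le_sup_left
    rw [← this]
    exact mem_sup_right (mem_zpowers _)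
  refine mem_normalizer_iff.2 fun x => ⟨key x, fun hx => ?_⟩
  let f : ↥(S : Subgroup G) → ↥(S : Subgroup G) := fun y => ⟨g * y * g⁻¹, key y y.2⟩
  have hf : Function.Injective f := fun y y' e =>
    Subtype.ext (mul_left_cancel (mul_right_cancel (congrArg Subtype.val e)))
  obtain ⟨y, hy⟩ := Finite.surjective_of_injective hf ⟨_, hx⟩
  rw [← mul_left_cancel (mul_right_cancel (congrArg Subtype.val hy : g * y * g⁻¹ = g * x * g⁻¹))]
  exact y.2

lemma exists_outside : ∃ v : G, orderOf v = 2 ∧ v ∉ MS := by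
  by_contra hall
  push Not at hall
  obtain ⟨t, htS, ht, -⟩ := h.exists_invol
  apply h.nn
  rw [← normalizer_eq_top_iff]
  refine top_le_iff.1 fun g _ => ?_
  exact se_mem' h.se ht ((S : Subgroup G).le_normalizer htS)
    (hall _ ((orderOf_conj g t).trans ht))

lemma all_conj {a b : G} (ha : orderOf a = 2) (hb : orderOf b = 2) : IsConj a b := by
  obtain ⟨t, htS, ht, -⟩ := h.exists_invol
  obtain ⟨v, hv, hvM⟩ := h.exists_outside
  have htM := (S : Subgroup G).le_normalizer htS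
  exact (S1225.result MS h.se v hv hvM t t ht htM ht htM).2 a b ha hb

lemma exists_two_invol : ∃ t t' : G, orderOf t = 2 ∧ orderOf t' = 2 ∧ t ∈ (S : Subgroup G) ∧
    t' ∈ (S : Subgroup G) ∧ t ≠ t' := by
  classical
  haveI : Fact (Nat.Prime 2) := ⟨Nat.prime_two⟩
  haveI : IsMulCommutative (S : Subgroup G) := ⟨⟨fun a b => Subtype.ext (h.comm a.2 b.2)⟩⟩
  obtain ⟨r, B, hr, hBS, hexp, hB⟩ := Coprime.exists_elementary_sq (A := (S : Subgroup G)) h.nc
  haveI : Fact r.Prime := ⟨hr⟩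
  obtain ⟨k, hk⟩ := S.isPGroup'.exists_card_eq
  obtain rfl : r = 2 := (Nat.prime_dvd_prime_iff_eq hr Nat.prime_two).1 (hr.dvd_of_dvd_pow (n := k)
    (hk ▸ (dvd_pow_self r two_ne_zero).trans (hB ▸ Subgroup.card_dvd_of_le hBS)))
  haveI := Fintype.ofFinite B
  have h4 : 1 < (Finset.univ.filter fun x : B => x ≠ 1).card := by
    rw [Finset.filter_ne', Finset.card_erase_of_mem (Finset.mem_univ _), Finset.card_univ,
      ← Nat.card_eq_fintype_card, hB]
    norm_num
  obtain ⟨x, hx, y, hy, hxy⟩ := Finset.one_lt_card.1 h4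
  simp only [Finset.mem_filter, Finset.mem_univ, true_and] at hx hy
  exact ⟨x, y, orderOf_eq_prime (hexp x x.2) fun e => hx (Subtype.ext e),
    orderOf_eq_prime (hexp y y.2) fun e => hy (Subtype.ext e), hBS x.2, hBS y.2,
    fun e => hxy (Subtype.ext e)⟩

lemma center_mem_A {w : G} (hw : w ∈ center G) : w ∈ AS :=
  mem_centralizer_iff.2 fun s _ => mem_center_iff.1 hw s

lemma center_invol {w : G} (hw : w ∈ center G) : orderOf w ≠ 2 := fun ho => h.nn ⟨fun x hx g => by
  rw [h.hab w ho g x (mem_center_iff.1 hw g) (mem_center_iff.1 hw x), mul_inv_cancel_right]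
  exact hx⟩

lemma center_eq_one {w : G} (hw : w ∈ center G) (h2 : w * w = 1) : w = 1 :=
  by_contra fun h1 => h.center_invol hw (orderOf_two_of h2 h1)

lemma center_odd {w : G} (hw : w ∈ center G) : Odd (orderOf w) := by
  by_contra he
  obtain ⟨i, hi⟩ := Nat.not_odd_iff_even.1 he
  have hi0 : i ≠ 0 := fun e => (orderOf_pos w).ne' (by omega)
  refine h.center_invol (pow_mem hw i) ?_
  rw [orderOf_pow' _ hi0, hi, ← two_mul, Nat.gcd_mul_left_left, Nat.mul_div_cancel _ (Nat.pos_of_ne_zero hi0)]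

/-- AS subgroup containing `AS` and an involution outside `MS` contains `MS`. -/
lemma M_le_of_A {X : Subgroup G} (hAX : AS ≤ X) {v : G} (hv : orderOf v = 2) (hvM : v ∉ MS)
    (hvX : v ∈ X) : MS ≤ X := by
  intro m hm
  obtain ⟨t, htS, ht, -⟩ := h.exists_invol
  have key : ∀ s : G, orderOf s = 2 → s ∈ (S : Subgroup G) → ∃ g ∈ X, g * s * g⁻¹ = v := by
    intro s hs hsS
    have hsM := (S : Subgroup G).le_normalizer hsS
    have hodd : Odd (orderOf (s * v)) := by
      by_contra he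
      obtain ⟨w, hw, -, hws, hwv⟩ := exists_involution_commute hs hv he
      exact hvM (se_centralizer h.se hw (se_centralizer h.se hs hsM hws) hwv.symm)
    obtain ⟨k, hk⟩ := conj_of_odd hs hv hodd
    exact ⟨_, pow_mem (mul_mem (hAX (h.S_le_A hsS)) hvX) k, hk⟩
  obtain ⟨g₁, hg₁, e₁⟩ := key t ht htS
  have hmt : m * t * m⁻¹ ∈ (S : Subgroup G) := (mem_normalizer_iff.1 hm t).1 htS
  obtain ⟨g₂, hg₂, e₂⟩ := key _ ((orderOf_conj m t).trans ht) hmt
  have hA : g₁⁻¹ * g₂ * m ∈ AS := (h.mem_A_iff ht htS).2 (by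
    calc g₁⁻¹ * g₂ * m * t = g₁⁻¹ * (g₂ * (m * t * m⁻¹) * g₂⁻¹) * g₂ * m := by group
      _ = g₁⁻¹ * (g₁ * t * g₁⁻¹) * g₂ * m := by rw [e₂, e₁]
      _ = _ := by group)
  rw [show m = g₂⁻¹ * g₁ * (g₁⁻¹ * g₂ * m) by group]
  exact mul_mem (mul_mem (inv_mem hg₂) hg₁) (hAX hA)

end Hyp

end Cfsg.Agent.Lib.AbInvCent
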