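import Cfsg.Agent.Lib.AbInvCent.Quot
import Cfsg.Agent.Lib.Recog.SLTwo
import Cfsg.Agent.Lib.SchurAlt.SL2
import Cfsg.Agent.Lib.SmallSimple.Basic
import Cfsg.Agent.Lib.LocalChar.SelfNorm
import Cfsg.Agent.S1230
import Cfsg.Agent.S0262
import Mathlib.Algebra.Group.Shrink

/-!
Groups with abelian involution centralisers are `SL(2, 2 ^ n) × A` (helper3).
-/

set_option autoImplicit false

namespace Cfsg.Agent.Lib.AbInvCent

open Subgroup Cfsg.Agent.Lib.Involution

universe u

variable {G : Type u} [Group G] [Finite G] {S : Sylow 2 G}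

local notation "MS" => normalizer ((S : Subgroup G) : Set G)
local notation "AS" => centralizer ((S : Subgroup G) : Set G)

/-- The normaliser of the Sylow 2-subgroup is maximal. -/
theorem Hyp.maximal (h : Hyp S) (X : Subgroup G) (hX : MS < X) : X = ⊤ := by
  classical
  by_contra hXtop
  obtain ⟨X₀, hX₀X, hX₀⟩ := Finite.exists_le_minimal (p := fun Y : Subgroup G => MS < Y) (a := X) hX
  have hMX : MS < X₀ := hX₀.prop
  have hX₀top : X₀ ≠ ⊤ := fun e => hXtop (top_le_iff.1 (e ▸ hX₀X))
  have hSX : (S : Subgroup G) ≤ X₀ := (S : Subgroup G).le_normalizer.trans hMX.le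
  set S' : Sylow 2 X₀ := S.subtype hSX with hS'
  have hcoe : ∀ x : X₀, x ∈ (S' : Subgroup X₀) ↔ (x : G) ∈ (S : Subgroup G) := fun x => by
    rw [hS', Sylow.coe_subtype, mem_subgroupOf]
  have hnorm : ∀ x : X₀, x ∈ normalizer ((S' : Subgroup X₀) : Set X₀) ↔ (x : G) ∈ MS := by
    intro x
    rw [mem_normalizer_iff, mem_normalizer_iff]
    constructor
    · intro hx y
      constructor
      · intro hy
        exact (hcoe _).1 ((hx ⟨y, hSX hy⟩).1 ((hcoe _).2 hy))
      · intro hy
        have hyX : y ∈ X₀ := by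
          have := mul_mem (mul_mem (inv_mem x.2) (hSX hy)) x.2
          rwa [show (x : G)⁻¹ * ((x : G) * y * (x : G)⁻¹) * x = y by group] at this
        exact (hcoe _).1 ((hx ⟨y, hyX⟩).2 ((hcoe _).2 hy))
    · intro hx y
      rw [hcoe, hcoe]
      exact hx y
  have hh : MHyp S' :=
    { hab := fun t ht a b ha hb => Subtype.ext (h.hab (t : G) (by rw [orderOf_coe]; exact ht) a b
        (congrArg Subtype.val ha) (congrArg Subtype.val hb))
      nc := fun hc => by
        haveI := hc
        refine h.nc (isCyclic_of_surjective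
          ((X₀.subtype.comp (S' : Subgroup X₀).subtype).codRestrict (S : Subgroup G)
            fun x => (hcoe _).1 x.2) fun y => ?_)
        exact ⟨⟨⟨y, hSX y.2⟩, (hcoe _).2 y.2⟩, rfl⟩
      nn := fun hn => hMX.not_ge fun x hx => (hnorm ⟨x, hx⟩).1
        (by rw [normalizer_eq_top_iff.2 hn]; trivial)
      max := fun Y hY => by
        have h1 : MS < Y.map X₀.subtype := by
          refine lt_of_le_of_ne (fun x hx => ⟨⟨x, hMX.le hx⟩, hY.le ((hnorm _).2 hx), rfl⟩) fun e => ?_
          refine hY.not_ge fun y hy => (hnorm y).2 ?_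
          rw [e]
          exact ⟨y, hy, rfl⟩
        have h2 := hX₀.eq_of_ge h1 (map_subtype_le _)
        rw [eq_top_iff]
        intro y _
        obtain ⟨y', hy', e⟩ : (y : G) ∈ Y.map X₀.subtype := h2 ▸ y.2
        exact (Subtype.ext e : y' = y) ▸ hy' }
  obtain ⟨t, htS, ht, -⟩ := h.exists_invol
  have hC : ∀ s : G, orderOf s = 2 → s ∈ X₀ → ∀ c : G, c * s = s * c → c ∈ X₀ := by
    intro s hs hsX c hc
    obtain ⟨x, hx⟩ := isConj_iff.1 (hh.all_conj (a := (⟨t, hSX htS⟩ : X₀)) (b := ⟨s, hsX⟩)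
      (by rw [← orderOf_coe]; exact ht) (by rw [← orderOf_coe]; exact hs))
    have hx' : (x : G) * t * (x : G)⁻¹ = s := congrArg Subtype.val hx
    have hA : (x : G)⁻¹ * c * x ∈ AS := (h.mem_A_iff ht htS).2 (by
      calc (x : G)⁻¹ * c * x * t = (x : G)⁻¹ * (c * ((x : G) * t * (x : G)⁻¹)) * x := by group
        _ = (x : G)⁻¹ * ((x : G) * t * (x : G)⁻¹ * c) * x := by rw [hx', hc]
        _ = _ := by group)
    rw [show c = (x : G) * ((x : G)⁻¹ * c * x) * (x : G)⁻¹ by group]
    exact mul_mem (mul_mem x.2 (hMX.le (Hyp.A_le_M hA))) (inv_mem x.2)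
  have hse : Cfsg.IsStronglyEmbedded X₀ := by
    refine (se_iff_forall hX₀top ?_).2 fun s g hs h1 h2 => ?_
    · have hd := Subgroup.orderOf_dvd_natCard X₀ (hSX htS)
      rw [ht] at hd
      exact even_iff_two_dvd.2 hd
    obtain ⟨x, hx⟩ := isConj_iff.1 (hh.all_conj (a := (⟨s, h1⟩ : X₀)) (b := ⟨g⁻¹ * s * g, h2⟩)
      (by rw [← orderOf_coe]; exact hs)
      (by rw [← orderOf_coe]; simpa using (Involution.orderOf_conj g⁻¹ s).trans hs))
    have hx' : (x : G) * s * (x : G)⁻¹ = g⁻¹ * s * g := congrArg Subtype.val hx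
    have := hC s hs h1 (g * x) (by
      calc g * x * s = g * ((x : G) * s * (x : G)⁻¹) * x := by group
        _ = _ := by rw [hx']; group)
    exact (Subgroup.mul_mem_cancel_right _ x.2).1 this
  obtain ⟨v, hv, hvX⟩ : ∃ v, orderOf v = 2 ∧ v ∉ X₀ := by
    by_contra hall
    push Not at hall
    refine hX₀top (top_le_iff.1 fun g _ => ?_)
    exact se_mem' hse ht (hSX htS) (hall _ ((Involution.orderOf_conj g t).trans ht))
  set D := X₀ ⊓ X₀.map (MulAut.conj v).toMonoidHom
  refine hh.no_odd_transitive (D.subgroupOf X₀) ?_ fun s s' hs hs' => ?_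
  · rw [Nat.card_congr (subgroupOfEquivOfLe (inf_le_left : D ≤ X₀)).toEquiv]
    exact hse.2.2 v hvX
  · obtain ⟨d, hd, e⟩ := (S1225.result X₀ hse v hv hvX (s : G) (s' : G)
      (by rw [orderOf_coe]; exact hs) s.2 (by rw [orderOf_coe]; exact hs') s'.2).1
    exact ⟨⟨d, hd.1⟩, mem_subgroupOf.2 hd, Subtype.ext e⟩

theorem Hyp.toMHyp (h : Hyp S) : MHyp S := { toHyp := h, max := h.maximal }

/-- The classification. -/
theorem Hyp.classify (h : Hyp S) :
    ∃ (F : Type) (_ : Field F) (_ : Fintype F) (A : Type) (_ : CommGroup A) (_ : Finite A),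
      CharP F 2 ∧ Odd (Nat.card A) ∧
        Nonempty (G ≃* Matrix.SpecialLinearGroup (Fin 2) F × A) := by
  classical
  haveI : Fact (Nat.Prime 2) := ⟨Nat.prime_two⟩
  have hA := (h.toMHyp.structure_of_max).1
  set π := QuotientGroup.mk' (center G) with hπ
  have hπk : ∀ g, π g = 1 ↔ g ∈ center G := fun g => QuotientGroup.eq_one_iff g
  set T : Sylow 2 (G ⧸ center G) := S.mapSurjective (QuotientGroup.mk'_surjective _) with hT
  have hTcoe : (T : Subgroup (G ⧸ center G)) = (S : Subgroup G).map π := rfl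
  have hinjS : ∀ s ∈ (S : Subgroup G), π s = 1 → s = 1 := by
    intro s hs he
    obtain ⟨k, hk⟩ := S.isPGroup' ⟨s, hs⟩
    have hk' : s ^ 2 ^ k = 1 := congrArg Subtype.val hk
    obtain ⟨i, -, hi⟩ := (Nat.dvd_prime_pow Nat.prime_two).1 (orderOf_dvd_of_pow_eq_one hk')
    have ho := h.center_odd ((hπk s).1 he)
    rw [hi] at ho
    rcases i with _ | i
    · exact orderOf_eq_one_iff.1 (by simpa using hi)
    · exact absurd ho (Nat.not_odd_iff_even.2 ⟨2 ^ i, by rw [pow_succ]; ring⟩)
  obtain ⟨t, htS, ht, -⟩ := h.exists_invol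
  have hnc : ¬ IsCyclic (T : Subgroup (G ⧸ center G)) := by
    intro hc
    haveI := hc
    refine h.nc (isCyclic_of_injective
      ((π.comp (S : Subgroup G).subtype).codRestrict (T : Subgroup (G ⧸ center G))
        fun x => hTcoe ▸ mem_map_of_mem π x.2) fun x y e => ?_)
    have e' : π x = π y := congrArg Subtype.val e
    exact Subtype.ext (inv_mul_eq_one.1 (hinjS _ (mul_mem (inv_mem x.2) y.2)
      (by rw [map_mul, map_inv, e', inv_mul_cancel])))
  have hnn : ¬ (T : Subgroup (G ⧸ center G)).Normal := by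
    intro hn
    refine h.nn ⟨fun x hx g => ?_⟩
    suffices hg : g ∈ MS from (mem_normalizer_iff.1 hg x).1 hx
    have hmem := hn.conj_mem (π t) (hTcoe ▸ mem_map_of_mem π htS) (π g)
    rw [hTcoe] at hmem
    obtain ⟨s, hs, e⟩ := hmem
    have hw : s⁻¹ * (g * t * g⁻¹) ∈ center G := (hπk _).1 (by
      rw [map_mul, map_inv, e, map_mul, map_mul, map_inv, inv_mul_cancel])
    refine se_mem' h.se ht ((S : Subgroup G).le_normalizer htS) ?_
    rw [show g * t * g⁻¹ = s * (s⁻¹ * (g * t * g⁻¹)) by group]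
    exact mul_mem ((S : Subgroup G).le_normalizer hs) (Hyp.A_le_M (h.center_mem_A hw))
  have hC : ∀ q : G ⧸ center G, orderOf q = 2 →
      IsMulCommutative (centralizer ({q} : Set (G ⧸ center G))) ∧
        ∀ c ∈ centralizer ({q} : Set (G ⧸ center G)), c ^ 2 = 1 := by
    intro q hq
    obtain ⟨g, rfl⟩ := QuotientGroup.mk'_surjective _ q
    have hg2 : g * g ∈ center G := (hπk _).1 (by rw [map_mul, mul_self hq])
    obtain ⟨i, hi⟩ := h.center_odd hg2
    set w := ((g * g) ^ (i + 1))⁻¹ with hwdef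
    have hw : w ∈ center G := inv_mem (pow_mem hg2 _)
    have hs : orderOf (g * w) = 2 := by
      refine orderOf_two_of ?_ fun e => ne_one hq ?_
      · calc g * w * (g * w) = g * (w * g) * w := by group
          _ = g * g * (w * w) := by rw [← mul_swap_central hw g]; group
          _ = (g * g) ^ (1 : ℤ) * (g * g) ^ (-((2 * i + 1 + 1 : ℕ) : ℤ)) := by
            rw [zpow_one, hwdef, zpow_neg, zpow_natCast, ← mul_inv_rev, ← pow_add]; ring_nf
          _ = (g * g) ^ (-(((2 * i + 1 : ℕ)) : ℤ)) := by rw [← zpow_add]; push_cast; ring_nf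
          _ = 1 := by rw [zpow_neg, zpow_natCast, ← hi, pow_orderOf_eq_one, inv_one]
      · rw [← map_one π, ← e, map_mul, (hπk w).2 hw, mul_one]
    set s := g * w with hsdef
    have hπs : π g = π s := by rw [hsdef, map_mul, (hπk w).2 hw, mul_one]
    obtain ⟨y, hy⟩ := isConj_iff.1 (h.all_conj hs ht)
    have hcent : ∀ c ∈ centralizer ({π g} : Set (G ⧸ center G)),
        ∃ x, π x = c ∧ x * s = s * x ∧ y * x * y⁻¹ ∈ AS := by
      intro c hc
      obtain ⟨x, rfl⟩ := QuotientGroup.mk'_surjective _ c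
      have hc' : π x * π s = π s * π x := by rw [← hπs]; exact mem_centralizer_singleton_iff.1 hc
      obtain ⟨v, hv, hve⟩ : ∃ v ∈ center G, x * s * x⁻¹ = v * s :=
        ⟨x * s * x⁻¹ * s⁻¹, (hπk _).1 (by
          rw [map_mul, map_mul, map_mul, map_inv, map_inv, hc', mul_inv_cancel_right, mul_inv_cancel]),
          by group⟩
      have hv1 : v = 1 := h.center_eq_one hv (by
        have h2 : v * s * (v * s) = 1 := by
          rw [← hve]
          calc x * s * x⁻¹ * (x * s * x⁻¹) = x * (s * s) * x⁻¹ := by group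
            _ = 1 := by rw [mul_self hs, mul_one, mul_inv_cancel]
        calc v * v = v * (s * v) * s := by rw [mul_swap_central hv s, mul_assoc v (v * s) s,
              mul_assoc v s s, mul_self hs, mul_one]
          _ = v * s * (v * s) := by group
          _ = 1 := h2)
      rw [hv1, one_mul, mul_inv_eq_iff_eq_mul] at hve
      refine ⟨x, rfl, hve, (h.mem_A_iff ht htS).2 ?_⟩
      rw [← hy, show y * x * y⁻¹ * (y * s * y⁻¹) = y * (x * s) * y⁻¹ by group, hve]; group
    refine ⟨⟨⟨fun c c' => ?_⟩⟩, fun c hc => ?_⟩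
    · obtain ⟨x, hx, hxs, -⟩ := hcent c c.2
      obtain ⟨x', hx', hxs', -⟩ := hcent c' c'.2
      refine Subtype.ext ?_
      show (c : G ⧸ center G) * c' = c' * c
      rw [← hx, ← hx', ← map_mul, ← map_mul, h.hab s hs x x' hxs hxs']
    · obtain ⟨x, rfl, -, hxA⟩ := hcent c hc
      obtain ⟨a, -, ha2, v, hv, e⟩ := hA _ hxA
      rw [← map_pow, hπk, pow_two]
      have : x * x = y⁻¹ * (y * x * y⁻¹ * (y * x * y⁻¹)) * y := by group
      rw [this, e, mul_assoc a v (a * v), ← mul_assoc v a v, ← mul_swap_central hv a,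
        show a * (a * v * v) = a * a * (v * v) by group, ha2, one_mul,
        mul_swap_central (mul_mem hv hv) y⁻¹, inv_mul_cancel_right]
      exact mul_mem hv hv
  obtain ⟨F, iF, iT, hF, ⟨iso⟩⟩ := S1230.result T hnc hnn hC
  obtain ⟨f, hf⟩ := T.isPGroup'.exists_card_eq
  have hchar : CharP F 2 := charP_of_card_eq_prime_pow (f := f) (hF.trans hf)
  have hF4 : 4 ≤ Fintype.card F := by
    rw [hF]
    have h2 : 2 ∣ Nat.card T := by
      have hto : orderOf (π t) = 2 := orderOf_two_of
        (by rw [← map_mul, mul_self ht, map_one]) fun e => ne_one ht (hinjS t htS e)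
      have h3 := orderOf_dvd_natCard (⟨π t, hTcoe ▸ mem_map_of_mem π htS⟩ : (T : Subgroup (G ⧸ center G)))
      rwa [Subgroup.orderOf_mk, hto] at h3
    rcases f with _ | _ | f
    · rw [hf] at h2; simp at h2
    · exfalso
      refine hnc ?_
      exact isCyclic_of_prime_card (p := 2) (by simpa using hf)
    · rw [hf, pow_succ, pow_succ]
      have : 0 < 2 ^ f := Nat.two_pow_pos f
      omega
  let toSL : Matrix.ProjectiveSpecialLinearGroup (Fin 2) F ≃* Matrix.SpecialLinearGroup (Fin 2) F :=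
    (QuotientGroup.quotientMulEquivOfEq (Recog.sl2_center_eq_bot (F := F))).trans
      QuotientGroup.quotientBot
  let ι : (G ⧸ center G) ≃* Matrix.SpecialLinearGroup (Fin 2) F := iso.trans toSL
  -- the quotient is perfect
  have hperf : commutator (G ⧸ center G) = ⊤ := by
    have h1 := SchurAlt.sl_perfect (F := F) (by omega)
    have h2 := Subgroup.map_commutator (⊤ : Subgroup (Matrix.SpecialLinearGroup (Fin 2) F)) ⊤
      ι.symm.toMonoidHom
    rw [← _root_.commutator_def, h1, Subgroup.map_top_of_surjective _ ι.symm.surjective,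
      ← _root_.commutator_def] at h2
    exact h2.symm
  have hG'top : commutator G ⊔ center G = ⊤ := by
    have h2 := Subgroup.map_commutator (⊤ : Subgroup G) ⊤ π
    rw [← _root_.commutator_def, Subgroup.map_top_of_surjective _ (QuotientGroup.mk'_surjective _),
      ← _root_.commutator_def, hperf] at h2
    have h3 := congrArg (Subgroup.comap π) h2
    rw [Subgroup.comap_map_eq, Subgroup.comap_top, hπ, QuotientGroup.ker_mk'] at h3
    exact h3
  have hsyl : ∀ (q : ℕ) [Fact q.Prime] (R : Sylow q G), IsMulCommutative (R : Subgroup G) := by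
    intro q hq R
    by_cases hq2 : q = 2
    · subst hq2
      refine ⟨⟨fun a b => Subtype.ext ?_⟩⟩
      obtain ⟨g, hg⟩ := MulAction.exists_smul_eq G R S
      have hconj : ∀ x ∈ (R : Subgroup G), g * x * g⁻¹ ∈ (S : Subgroup G) := fun x hx => by
        rw [← hg, Sylow.coe_subgroup_smul]
        exact smul_mem_pointwise_smul _ _ _ hx
      have := h.comm (hconj a a.2) (hconj b b.2)
      rw [show g * a * g⁻¹ * (g * b * g⁻¹) = g * ((a : G) * b) * g⁻¹ by group,
        show g * b * g⁻¹ * (g * a * g⁻¹) = g * ((b : G) * a) * g⁻¹ by group] at this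
      exact mul_left_cancel (mul_right_cancel this)
    · have hp := R.isPGroup'.map (ι.toMonoidHom.comp π)
      obtain ⟨R', hR'⟩ := hp.exists_le_sylow
      haveI := S0262.result 2 q hq2 hq2 R'
      let φ : (R : Subgroup G) →* (R' : Subgroup (Matrix.SpecialLinearGroup (Fin 2) F)) :=
        ((ι.toMonoidHom.comp π).comp (R : Subgroup G).subtype).codRestrict _
          fun x => hR' (mem_map_of_mem _ x.2)
      refine ⟨⟨?_⟩⟩
      intro a b
      refine commutative_of_cyclic_center_quotient φ (fun x hx => ?_) a b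
      rw [MonoidHom.mem_ker] at hx
      have hx' : ι (π x) = 1 := congrArg Subtype.val hx
      have hxc : (x : G) ∈ center G := (hπk _).1 (ι.injective (hx'.trans ι.map_one.symm))
      exact mem_center_iff.2 fun y => Subtype.ext (mem_center_iff.1 hxc y)
  set K := commutator G
  have hdisj : ∀ z ∈ K, z ∈ center G → z = 1 := fun z hz hz' =>
    LocalChar.SelfNorm.center_inf_commutator hsyl hz' hz
  let μ : K × center G →* G :=
    { toFun := fun p => (p.1 : G) * p.2
      map_one' := by simp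
      map_mul' := fun p q => by
        show (p.1 : G) * q.1 * ((p.2 : G) * q.2) = p.1 * p.2 * (q.1 * q.2)
        calc (p.1 : G) * q.1 * ((p.2 : G) * q.2) = p.1 * ((q.1 : G) * p.2) * q.2 := by group
          _ = _ := by rw [mul_swap_central p.2.2 (q.1 : G)]; group }
  have hμ : Function.Bijective μ := by
    refine ⟨(injective_iff_map_eq_one μ).2 fun p hp => ?_, fun g => ?_⟩
    · have hp' : (p.1 : G) * p.2 = 1 := hp
      have h1 : (p.1 : G) = 1 := hdisj _ p.1.2 (by
        rw [eq_inv_of_mul_eq_one_left hp']; exact inv_mem p.2.2)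
      rw [h1, one_mul] at hp'
      exact Prod.ext (Subtype.ext h1) (Subtype.ext hp')
    · have hg : g ∈ center G ⊔ K := by rw [sup_comm, hG'top]; trivial
      obtain ⟨z, hz, k, hk, e⟩ := Subgroup.mem_sup_of_normal_left.1 hg
      exact ⟨(⟨k, hk⟩, ⟨z, hz⟩), by
        show k * z = g
        rw [← e, mul_swap_central hz k]⟩
  let eμ : K × center G ≃* G := MulEquiv.ofBijective μ hμ
  let ψ : K →* G ⧸ center G := π.comp K.subtype
  have hψ : Function.Bijective ψ := by
    refine ⟨(injective_iff_map_eq_one ψ).2 fun k hk => Subtype.ext (hdisj _ k.2 ((hπk _).1 hk)),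
      fun q => ?_⟩
    obtain ⟨g, rfl⟩ := QuotientGroup.mk'_surjective _ q
    obtain ⟨⟨k, z⟩, rfl⟩ := hμ.2 g
    refine ⟨k, ?_⟩
    show π (k : G) = π ((k : G) * z)
    rw [map_mul, (hπk _).2 z.2, mul_one]
  let eK : K ≃* Matrix.SpecialLinearGroup (Fin 2) F := (MulEquiv.ofBijective ψ hψ).trans ι
  letI : CommGroup (center G) :=
    { (inferInstance : Group (center G)) with
      mul_comm := fun a b => Subtype.ext (mem_center_iff.1 b.2 a) }
  haveI : Small.{0} (center G) := Countable.toSmall _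
  haveI : Finite (Shrink.{0} (center G)) := Finite.of_equiv _ (equivShrink (center G))
  refine ⟨F, iF, iT, Shrink.{0} (center G), inferInstance, inferInstance, hchar, ?_, ⟨?_⟩⟩
  · rw [Nat.card_congr (equivShrink (center G)).symm, ← Nat.not_even_iff_odd, even_iff_two_dvd]
    intro h2
    obtain ⟨w, hw⟩ := exists_prime_orderOf_dvd_card' 2 h2
    exact h.center_invol w.2 (by rw [orderOf_coe]; exact hw)
  · exact eμ.symm.trans (eK.prodCongr Shrink.mulEquiv.symm)

end Cfsg.Agent.Lib.AbInvCent
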