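import Cfsg.Agent.Lib.AbInvCent.Basic

/-!
Groups with abelian involution centralisers in which the Sylow 2-normaliser is maximal: the action
on its cosets is doubly transitive, only the centre fixes three points (helper3).
-/

set_option autoImplicit false

namespace Cfsg.Agent.Lib.AbInvCent

open Subgroup MulAction Cfsg.Agent.Lib.Involution

universe u

variable {G : Type u} [Group G]

/-- `g` centralises `x` modulo the centre. -/
def Star (x g : G) : Prop := g * x * g⁻¹ * x⁻¹ ∈ center G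

theorem mul_swap_central {w : G} (hw : w ∈ center G) (g : G) : g * w = w * g :=
  mem_center_iff.1 hw g

theorem Star.mul {x g g' : G} (hg : Star x g) (hg' : Star x g') : Star x (g * g') := by
  have e : g * g' * x * (g * g')⁻¹ * x⁻¹
      = g * (g' * x * g'⁻¹ * x⁻¹) * x * g⁻¹ * x⁻¹ := by group
  have e2 : g * (g' * x * g'⁻¹ * x⁻¹) * x * g⁻¹ * x⁻¹
      = (g' * x * g'⁻¹ * x⁻¹) * (g * x * g⁻¹ * x⁻¹) := by
    rw [mul_swap_central hg' g]; group
  show g * g' * x * (g * g')⁻¹ * x⁻¹ ∈ center G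
  rw [e, e2]
  exact mul_mem hg' hg

theorem Star.inv {x g : G} (hg : Star x g) : Star x g⁻¹ := by
  have hw := inv_mem hg
  have e : g⁻¹ * x * g⁻¹⁻¹ * x⁻¹ = g⁻¹ * (g * x * g⁻¹ * x⁻¹)⁻¹ * g := by group
  show g⁻¹ * x * g⁻¹⁻¹ * x⁻¹ ∈ center G
  rw [e, mul_swap_central hw g⁻¹, mul_assoc, inv_mul_cancel, mul_one]
  exact hw

theorem star_of_center {x g : G} (hg : g ∈ center G) : Star x g := by
  show g * x * g⁻¹ * x⁻¹ ∈ center G
  rw [← mem_center_iff.1 hg x, mul_inv_cancel_right, mul_inv_cancel]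
  exact one_mem _

/-- Conjugation by an involution is multiplicative. -/
theorem conj_mul {u : G} (hu : u * u = 1) (a b : G) : u * (a * b) * u = u * a * u * (u * b * u) := by
  calc u * (a * b) * u = u * a * (u * u) * b * u := by rw [hu]; group
    _ = _ := by group

theorem conj_conj {u : G} (hu : u * u = 1) (a : G) : u * (u * a * u) * u = a := by
  calc u * (u * a * u) * u = u * u * a * (u * u) := by group
    _ = a := by rw [hu, one_mul, mul_one]

theorem conj_central {u w : G} (hu : u * u = 1) (hw : w ∈ center G) : u * w * u = w := by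
  rw [mul_swap_central hw u, mul_assoc, hu, mul_one]

theorem conj_inv' {u : G} (hu : u * u = 1) (a : G) : u * a⁻¹ * u = (u * a * u)⁻¹ := by
  rw [mul_inv_rev, mul_inv_rev, inv_eq_of_mul_eq_one_right hu, mul_assoc]

variable [Finite G]

/-- The normaliser of the Sylow 2-subgroup is maximal. -/
structure MHyp (S : Sylow 2 G) : Prop extends Hyp S where
  max : ∀ X : Subgroup G, normalizer ((S : Subgroup G) : Set G) < X → X = ⊤

namespace MHyp

variable {S : Sylow 2 G} (h : MHyp S)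
include h

local notation "MS" => normalizer ((S : Subgroup G) : Set G)
local notation "AS" => centralizer ((S : Subgroup G) : Set G)

lemma key {c x : G} (hc : c ∈ AS) (hx : x ∉ MS) (hcx : x * c = c * x) : c ∈ center G := by
  set X := centralizer ({c} : Set G)
  have hAX : AS ≤ X := fun a ha => mem_centralizer_singleton_iff.2 (h.comm_A ha hc)
  obtain ⟨t, htS, ht, -⟩ := h.exists_invol
  have hxX : x ∈ X := mem_centralizer_singleton_iff.2 hcx
  have htX : t ∈ X := hAX (h.S_le_A htS)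
  have hvM : x * t * x⁻¹ ∉ MS := fun hm =>
    hx (se_mem' h.se ht ((S : Subgroup G).le_normalizer htS) hm)
  have hMX := h.M_le_of_A hAX ((orderOf_conj x t).trans ht) hvM
    (mul_mem (mul_mem hxX htX) (inv_mem hxX))
  have htop : X = ⊤ := h.max X (lt_of_le_of_ne hMX fun e => hx (by rw [e]; exact hxX))
  exact mem_center_iff.2 fun g => mem_centralizer_singleton_iff.1 (show g ∈ X by rw [htop]; trivial)

lemma key_conj {u c x : G} (hu : orderOf u = 2) (hcu : c * u = u * c) (hxc : x * c = c * x)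
    (hxo : Odd (orderOf x)) (hx1 : x ≠ 1) (hinv : u * x * u = x⁻¹) : c ∈ center G := by
  obtain ⟨t, htS, ht, -⟩ := h.exists_invol
  obtain ⟨g, hg⟩ := isConj_iff.1 (h.all_conj hu ht)
  have hc' : g * c * g⁻¹ ∈ AS := (h.mem_A_iff ht htS).2 (by
    rw [← hg, show g * c * g⁻¹ * (g * u * g⁻¹) = g * (c * u) * g⁻¹ by group, hcu]; group)
  have hinv' : t * (g * x * g⁻¹) * t = (g * x * g⁻¹)⁻¹ := by
    rw [← hg, show g * u * g⁻¹ * (g * x * g⁻¹) * (g * u * g⁻¹) = g * (u * x * u) * g⁻¹ by group,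
      hinv]
    group
  have hcom : g * x * g⁻¹ * (g * c * g⁻¹) = g * c * g⁻¹ * (g * x * g⁻¹) := by
    rw [show g * x * g⁻¹ * (g * c * g⁻¹) = g * (x * c) * g⁻¹ by group, hxc]; group
  have hxM : g * x * g⁻¹ ∉ MS := by
    intro hm
    set x' := g * x * g⁻¹ with hx'
    have h1 : t * (x' * t * x'⁻¹) ∈ (S : Subgroup G) :=
      mul_mem htS ((mem_normalizer_iff.1 hm t).1 htS)
    have h2 : t * (x' * t * x'⁻¹) = (x' * x')⁻¹ := by
      rw [show t * (x' * t * x'⁻¹) = t * x' * t * x'⁻¹ by group, hinv']; group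
    rw [h2, inv_mem_iff] at h1
    have h4 : t * (x' * x') * t = x' * x' := by
      rw [h.comm htS h1, mul_assoc, mul_self ht, mul_one]
    rw [conj_mul (mul_self ht), hinv', ← mul_inv_rev, inv_eq_iff_mul_eq_one] at h4
    obtain ⟨i, hi⟩ : Odd (orderOf x') := by rwa [hx', orderOf_conj]
    have h5 : orderOf x' ∣ 4 := orderOf_dvd_of_pow_eq_one (by
      rw [show (4 : ℕ) = 2 * 2 from rfl, pow_mul, pow_two, pow_two, h4])
    have h6 : orderOf x' = 1 := by
      have := Nat.le_of_dvd (by norm_num) h5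
      interval_cases hh : orderOf x' <;> omega
    rw [hx', orderOf_conj, orderOf_eq_one_iff] at h6
    exact hx1 h6
  have := h.key hc' hxM hcom
  have e := Subgroup.Normal.conj_mem (inferInstance : (center G).Normal) _ this g⁻¹
  rwa [show g⁻¹ * (g * c * g⁻¹) * g⁻¹⁻¹ = c by group] at e

section star

variable {u x : G}

omit h in
lemma star_u (hu : orderOf u = 2) (hinv : u * x * u = x⁻¹) {g : G} (hg : Star x g) :
    Star x (u * g * u) := by
  have huu := mul_self hu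
  obtain ⟨w, hw, hwe⟩ : ∃ w ∈ center G, g * x * g⁻¹ = w * x := ⟨_, hg, by group⟩
  have e : u * g * u * x⁻¹ * (u * g * u)⁻¹ = w * x⁻¹ := by
    calc u * g * u * x⁻¹ * (u * g * u)⁻¹ = u * g * u * (u * x * u) * (u * g⁻¹ * u) := by
          rw [hinv, conj_inv' huu]
      _ = u * (g * x * g⁻¹) * u := by rw [← conj_mul huu, ← conj_mul huu]
      _ = w * x⁻¹ := by rw [hwe, conj_mul huu, conj_central huu hw, hinv]
  have e2 : u * g * u * x * (u * g * u)⁻¹ = x * w⁻¹ := by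
    calc u * g * u * x * (u * g * u)⁻¹ = (u * g * u * x⁻¹ * (u * g * u)⁻¹)⁻¹ := by group
      _ = _ := by rw [e]; group
  show u * g * u * x * (u * g * u)⁻¹ * x⁻¹ ∈ center G
  rw [e2, mul_swap_central (inv_mem hw) x, mul_inv_cancel_right]
  exact inv_mem hw

lemma star_fix (hu : orderOf u = 2) (hxo : Odd (orderOf x)) (hx1 : x ≠ 1)
    (hinv : u * x * u = x⁻¹) {f : G} (hf : Star x f) (hfu : f * u = u * f) : f ∈ center G := by
  have huu := mul_self hu
  obtain ⟨w, hw, hwe⟩ : ∃ w ∈ center G, f * x * f⁻¹ = w * x := ⟨_, hf, by group⟩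
  have h2 : u * f * u = f := by rw [← hfu, mul_assoc, huu, mul_one]
  have e : f * x⁻¹ * f⁻¹ = w * x⁻¹ := by
    calc f * x⁻¹ * f⁻¹ = u * f * u * (u * x * u) * (u * f⁻¹ * u) := by
          rw [hinv, conj_inv' huu, h2]
      _ = u * (f * x * f⁻¹) * u := by rw [← conj_mul huu, ← conj_mul huu]
      _ = w * x⁻¹ := by rw [hwe, conj_mul huu, conj_central huu hw, hinv]
  have h3 : w * x * (w * x⁻¹) = 1 := by rw [← hwe, ← e]; group
  have hw1 : w = 1 := h.center_eq_one hw (by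
    calc w * w = w * (x * w) * x⁻¹ := by rw [mul_swap_central hw x]; group
      _ = w * x * (w * x⁻¹) := by group
      _ = 1 := h3)
  refine h.key_conj hu hfu ?_ hxo hx1 hinv
  rw [hw1, one_mul, mul_inv_eq_iff_eq_mul] at hwe
  exact hwe.symm

lemma star_inverts (hu : orderOf u = 2) (hxo : Odd (orderOf x)) (hx1 : x ≠ 1)
    (hinv : u * x * u = x⁻¹) {g : G} (hg : Star x g) :
    ∃ w ∈ center G, u * g * u = g⁻¹ * w := by
  classical
  have huu := mul_self hu
  let X := {g : G // Star x g}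
  let I := {i : G // Star x i ∧ u * i * u = i⁻¹}
  let φ : X → I := fun g => ⟨g.1⁻¹ * (u * g.1 * u), g.2.inv.mul (star_u hu hinv g.2), by
    rw [conj_mul huu, conj_inv' huu, conj_conj huu]; group⟩
  let ψ : I × center G → X := fun p => ⟨p.1.1 * p.2, p.1.2.1.mul (star_of_center p.2.2)⟩
  have hψ : Function.Injective ψ := by
    rintro ⟨⟨i, hiS, hi⟩, ⟨z, hz⟩⟩ ⟨⟨i', hi'S, hi'⟩, ⟨z', hz'⟩⟩ e
    have e' : i * z = i' * z' := congrArg Subtype.val e
    have e2 := congrArg (fun g => u * g * u) e'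
    simp only [conj_mul huu, hi, hi', conj_central huu hz, conj_central huu hz'] at e2
    have hw : z' * z⁻¹ ∈ center G := mul_mem hz' (inv_mem hz)
    have h1 : i = i' * (z' * z⁻¹) := by rw [← mul_assoc, ← e', mul_inv_cancel_right]
    have h2 : i⁻¹ = i'⁻¹ * (z' * z⁻¹) := by rw [← mul_assoc, ← e2, mul_inv_cancel_right]
    have h3 : z' * z⁻¹ = 1 := h.center_eq_one hw (by
      calc z' * z⁻¹ * (z' * z⁻¹) = i' * (i'⁻¹ * (z' * z⁻¹)) * (z' * z⁻¹) := by group
        _ = i' * (z' * z⁻¹) * (i'⁻¹ * (z' * z⁻¹)) := by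
          rw [mul_assoc i', mul_swap_central hw (i'⁻¹ * (z' * z⁻¹))]; group
        _ = 1 := by rw [← h1, ← h2, mul_inv_cancel])
    rw [mul_inv_eq_one] at h3
    subst h3
    have : i = i' := mul_right_cancel e'
    subst this
    rfl
  let σ : I → X := fun i => if hh : ∃ g, φ g = i then hh.choose else ⟨1, star_of_center (one_mem _)⟩
  have hσ : ∀ g, φ (σ (φ g)) = φ g := fun g => by
    have hh : ∃ g', φ g' = φ g := ⟨g, rfl⟩
    simp only [σ, dif_pos hh]
    exact hh.choose_spec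
  have hfix : ∀ g, g.1 * (σ (φ g)).1⁻¹ ∈ center G := fun g => by
    set g' := σ (φ g) with hg'
    have e : g'.1⁻¹ * (u * g'.1 * u) = g.1⁻¹ * (u * g.1 * u) := congrArg Subtype.val (hσ g)
    refine h.star_fix hu hxo hx1 hinv (g.2.mul g'.2.inv) ?_
    have : u * (g.1 * g'.1⁻¹) * u = g.1 * g'.1⁻¹ := by
      rw [conj_mul huu, conj_inv' huu, mul_inv_eq_iff_eq_mul,
        show g.1 * g'.1⁻¹ * (u * g'.1 * u) = g.1 * (g'.1⁻¹ * (u * g'.1 * u)) by group, e,
        mul_inv_cancel_left]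
    calc g.1 * g'.1⁻¹ * u = u * u * (g.1 * g'.1⁻¹) * u := by rw [huu, one_mul]
      _ = u * (u * (g.1 * g'.1⁻¹) * u) := by group
      _ = _ := by rw [this]
  let θ : X → I × center G := fun g => (φ g, ⟨g.1 * (σ (φ g)).1⁻¹, hfix g⟩)
  have hθ : Function.Injective θ := fun g g' e => by
    have e1 : φ g = φ g' := congrArg Prod.fst e
    have e2 : g.1 * (σ (φ g)).1⁻¹ = g'.1 * (σ (φ g')).1⁻¹ :=
      congrArg (fun p : I × center G => (p.2 : G)) e
    rw [e1] at e2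
    exact Subtype.ext (mul_right_cancel e2)
  have hsurj : Function.Surjective ψ :=
    ((Nat.bijective_iff_injective_and_card ψ).2 ⟨hψ,
      le_antisymm (Nat.card_le_card_of_injective ψ hψ) (Nat.card_le_card_of_injective θ hθ)⟩).2
  obtain ⟨⟨⟨i, hiS, hi⟩, ⟨z, hz⟩⟩, hp⟩ := hsurj ⟨g, hg⟩
  have hp' : i * z = g := congrArg Subtype.val hp
  refine ⟨z * z, mul_mem hz hz, ?_⟩
  rw [← hp', conj_mul huu, hi, conj_central huu hz, mul_inv_rev]
  calc i⁻¹ * z = z⁻¹ * (z * i⁻¹) * z := by group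
    _ = z⁻¹ * i⁻¹ * (z * z) := by rw [← mul_swap_central hz i⁻¹]; group

lemma no_inv_cent (hu : orderOf u = 2) (hxo : Odd (orderOf x)) (hx1 : x ≠ 1)
    (hinv : u * x * u = x⁻¹) {v : G} (hv : orderOf v = 2) (hvx : v * x = x * v) : False := by
  have huu := mul_self hu
  have hvS : Star x v := by
    show v * x * v⁻¹ * x⁻¹ ∈ center G
    rw [hvx, mul_inv_cancel_right, mul_inv_cancel]
    exact one_mem _
  obtain ⟨w, hw, e⟩ := h.star_inverts hu hxo hx1 hinv hvS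
  rw [inv_self hv] at e
  have h1 := congrArg (fun g => u * g * u) e
  simp only [conj_conj huu, conj_mul huu, conj_central huu hw] at h1
  rw [e, mul_assoc, left_eq_mul] at h1
  rw [h.center_eq_one hw h1, mul_one] at e
  have hvu : v * u = u * v := by
    calc v * u = u * v * u * u := by rw [e]
      _ = u * v := by rw [mul_assoc, huu, mul_one]
  exact h.center_invol (h.key_conj hu hvu hvx.symm hxo hx1 hinv) hv

lemma A_star (hu : orderOf u = 2) (huM : u ∉ MS) (hxo : Odd (orderOf x)) (hx1 : x ≠ 1)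
    (hinv : u * x * u = x⁻¹) {a : G} (ha : a ∈ AS) (hax : Star x a) : a ∈ center G := by
  obtain ⟨w, hw, e⟩ := h.star_inverts hu hxo hx1 hinv hax
  obtain ⟨t, htS, ht, -⟩ := h.exists_invol
  have htM := (S : Subgroup G).le_normalizer htS
  have huu := mul_self hu
  have hvM : u * t * u ∉ MS := fun hm =>
    huM (se_mem' h.se ht htM (by rwa [inv_self hu]))
  refine h.key ha hvM ?_
  have hc : u * t * u * (u * a * u) = u * a * u * (u * t * u) := by
    rw [← conj_mul huu, ← (h.mem_A_iff ht htS).1 ha, conj_mul huu]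
  rw [e] at hc
  have hc' : u * t * u * a⁻¹ = a⁻¹ * (u * t * u) := by
    refine mul_right_cancel (b := w) ?_
    rw [mul_assoc (u * t * u), hc, mul_assoc a⁻¹ (u * t * u) w, mul_swap_central hw (u * t * u),
      mul_assoc]
  exact ((Commute.inv_right_iff).1 hc').eq

end star

/-! ### The two-point stabilisers -/

omit h in
lemma mem_D {u g : G} (hu : orderOf u = 2) :
    g ∈ MS ⊓ (MS).map (MulAut.conj u).toMonoidHom ↔ g ∈ MS ∧ u * g * u ∈ MS := by
  rw [mem_inf, mem_map_conj, inv_self hu]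

lemma D_odd {u g : G} (hu : orderOf u = 2) (huM : u ∉ MS) (h1 : g ∈ MS) (h2 : u * g * u ∈ MS) :
    Odd (orderOf g) :=
  Odd.of_dvd_nat (h.se.2.2 u huM) (Subgroup.orderOf_dvd_natCard _ ((mem_D hu).2 ⟨h1, h2⟩))

lemma exists_K {u m : G} (hu : orderOf u = 2) (huM : u ∉ MS) (hm : m ∈ MS) :
    ∃ d ∈ MS, u * d * u = d⁻¹ ∧ d⁻¹ * m ∈ AS := by
  classical
  obtain ⟨t, htS, ht, -⟩ := h.exists_invol
  have huu := mul_self hu
  set x₀ : G ⧸ MS := QuotientGroup.mk 1
  have hx0 : ∀ g : G, g • x₀ = x₀ ↔ g ∈ MS := fun g => by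
    rw [← MulAction.mem_stabilizer_iff, MulAction.stabilizer_quotient]
  have hne : x₀ ≠ u • x₀ := fun e => huM ((hx0 u).1 e.symm)
  have hcount := S1224.result MS h.se x₀ (u • x₀) hne
  have hin : ∀ j : G, j • x₀ = u • x₀ → u * j ∈ MS := fun j hj => (hx0 _).1 (by
    rw [mul_smul, hj, ← mul_smul, huu, one_smul])
  have hconjS : ∀ g : G, g ∈ MS → g * t * g⁻¹ ∈ (S : Subgroup G) := fun g hg =>
    (mem_normalizer_iff.1 hg t).1 htS
  let f : {j : G // orderOf j = 2 ∧ j • x₀ = u • x₀} → {s : G // orderOf s = 2 ∧ s ∈ MS} :=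
    fun j => ⟨u * j.1 * t * (u * j.1)⁻¹, (orderOf_conj _ _).trans ht,
      (S : Subgroup G).le_normalizer (hconjS _ (hin j.1 j.2.2))⟩
  have hf : Function.Injective f := by
    rintro ⟨j, hj, hj0⟩ ⟨j', hj', hj'0⟩ e
    have e' : u * j * t * (u * j)⁻¹ = u * j' * t * (u * j')⁻¹ := congrArg Subtype.val e
    have he : j * j' ∈ AS := (h.mem_A_iff ht htS).2 (by
      have : (u * j)⁻¹ * (u * j') = j * j' := by
        rw [mul_inv_rev, inv_self hj, inv_self hu, mul_assoc, mul_mul_self_left hu]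
      rw [← this]
      calc (u * j)⁻¹ * (u * j') * t = (u * j)⁻¹ * (u * j' * t * (u * j')⁻¹) * (u * j') := by group
        _ = _ := by rw [← e']; group)
    refine Subtype.ext (by_contra fun hjj => ?_)
    have hjM : j ∉ MS := fun hm' => huM ((Subgroup.mul_mem_cancel_right _ hm').1 (hin j hj0))
    have hinv : j * (j * j') * j = (j * j')⁻¹ := by
      rw [mul_mul_self_left hj, mul_inv_rev, inv_self hj, inv_self hj']
    have hne1 : j * j' ≠ 1 := fun e1 => hjj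
      (show j = j' from (eq_inv_of_mul_eq_one_left e1).trans (inv_self hj'))
    have hodd := h.D_odd hj hjM (Hyp.A_le_M he) (by rw [hinv]; exact inv_mem (Hyp.A_le_M he))
    exact h.no_inv_cent hj hodd hne1 hinv ht ((h.mem_A_iff ht htS).1 he).symm
  obtain ⟨⟨j, hj, hj0⟩, e⟩ := ((Nat.bijective_iff_injective_and_card f).2 ⟨hf, hcount⟩).2
    ⟨m * t * m⁻¹, (orderOf_conj m t).trans ht, (S : Subgroup G).le_normalizer (hconjS m hm)⟩
  have e' : u * j * t * (u * j)⁻¹ = m * t * m⁻¹ := congrArg Subtype.val e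
  refine ⟨u * j, hin j hj0, ?_, (h.mem_A_iff ht htS).2 ?_⟩
  · rw [mul_mul_self_left hu, mul_inv_rev, inv_self hj, inv_self hu]
  · calc (u * j)⁻¹ * m * t = (u * j)⁻¹ * (m * t * m⁻¹) * m := by group
      _ = _ := by rw [← e']; group

lemma K_star {u d a : G} (hu : orderOf u = 2) (huM : u ∉ MS) (hd : d ∈ MS) (hdu : u * d * u = d⁻¹)
    (hd1 : d ≠ 1) (ha : a ∈ AS) (hs : Star d a) : a ∈ center G :=
  h.A_star hu huM (h.D_odd hu huM hd (by rw [hdu]; exact inv_mem hd)) hd1 hdu ha hs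

/-- A coset of `A` other than `A` consists of conjugates of an inverted element, up to the centre. -/
lemma coset_conj {u d b : G} (hu : orderOf u = 2) (huM : u ∉ MS) (hd : d ∈ MS)
    (hdu : u * d * u = d⁻¹) (hd1 : d ≠ 1) (hb : b ∈ AS) :
    ∃ a ∈ AS, ∃ w ∈ center G, d * b = a * d * a⁻¹ * w := by
  classical
  let η : AS → AS := fun a => ⟨d⁻¹ * a * d * (a : G)⁻¹,
    mul_mem (Hyp.conj_mem_A' hd a.2) (inv_mem a.2)⟩
  let ψ : Set.range η × center G → AS := fun p =>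
    ⟨(p.1.1 : G) * p.2, mul_mem p.1.1.2 (h.center_mem_A p.2.2)⟩
  have hdiv : ∀ a a' : AS, (η a : G) * ((η a' : G))⁻¹ ∈ center G → (a : G) * (a' : G)⁻¹ ∈ center G := by
    intro a a' hw
    refine h.K_star hu huM hd hdu hd1 (mul_mem a.2 (inv_mem a'.2)) ?_
    have hA : d⁻¹ * (a' : G)⁻¹ * d ∈ AS := Hyp.conj_mem_A' hd (inv_mem a'.2)
    have hA2 : (a : G)⁻¹ * a' ∈ AS := mul_mem (inv_mem a.2) a'.2
    have e1 : (η a : G) * ((η a' : G))⁻¹ = d⁻¹ * a * d * (((a : G)⁻¹ * a') * (d⁻¹ * (a' : G)⁻¹ * d)) := by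
      show d⁻¹ * a * d * (a : G)⁻¹ * (d⁻¹ * a' * d * (a' : G)⁻¹)⁻¹ = _
      group
    rw [h.comm_A hA2 hA] at e1
    rw [e1] at hw
    show (a : G) * (a' : G)⁻¹ * d * ((a : G) * (a' : G)⁻¹)⁻¹ * d⁻¹ ∈ center G
    have e2 : d⁻¹ * a * d * (d⁻¹ * (a' : G)⁻¹ * d * ((a : G)⁻¹ * a'))
        = d⁻¹ * ((a : G) * (a' : G)⁻¹ * d * ((a : G)⁻¹ * a') * d⁻¹) * d := by group
    rw [e2] at hw
    have e3 := Subgroup.Normal.conj_mem (inferInstance : (center G).Normal) _ hw d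
    rw [show d * (d⁻¹ * ((a : G) * (a' : G)⁻¹ * d * ((a : G)⁻¹ * a') * d⁻¹) * d) * d⁻¹
      = (a : G) * (a' : G)⁻¹ * d * ((a : G)⁻¹ * a') * d⁻¹ by group] at e3
    rwa [mul_inv_rev, inv_inv, h.comm_A a'.2 (inv_mem a.2)]
  have hψ : Function.Injective ψ := by
    rintro ⟨⟨_, a, rfl⟩, ⟨z, hz⟩⟩ ⟨⟨_, a', rfl⟩, ⟨z', hz'⟩⟩ e
    have e' : (η a : G) * z = (η a' : G) * z' := congrArg Subtype.val e
    have h1 : (η a : G) * ((η a' : G))⁻¹ = z' * z⁻¹ := by
      have h0 : (η a : G) = (η a' : G) * (z' * z⁻¹) := by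
        rw [← mul_assoc, ← e', mul_inv_cancel_right]
      rw [h0, mul_swap_central (mul_mem hz' (inv_mem hz)) (η a' : G), mul_inv_cancel_right]
    have h2 := hdiv a a' (by rw [h1]; exact mul_mem hz' (inv_mem hz))
    have h3 : η a = η a' := by
      refine Subtype.ext ?_
      show d⁻¹ * a * d * (a : G)⁻¹ = d⁻¹ * a' * d * (a' : G)⁻¹
      set w := (a : G) * (a' : G)⁻¹ with hw
      have ha : (a : G) = w * a' := by rw [hw, inv_mul_cancel_right]
      rw [ha, mul_inv_rev, show d⁻¹ * (w * a') * d * ((a' : G)⁻¹ * w⁻¹)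
        = d⁻¹ * w * a' * d * (a' : G)⁻¹ * w⁻¹ by group, mul_swap_central h2 d⁻¹,
        show w * d⁻¹ * a' * d * (a' : G)⁻¹ * w⁻¹ = w * (d⁻¹ * a' * d * (a' : G)⁻¹) * w⁻¹ by group,
        ← mul_swap_central h2 (d⁻¹ * a' * d * (a' : G)⁻¹), mul_inv_cancel_right]
    rw [h3] at e'
    have h4 : z = z' := mul_left_cancel e'
    subst h4
    refine Prod.ext (Subtype.ext h3) rfl
  let σ : Set.range η → AS := fun i => i.2.choose
  have hσ : ∀ i, η (σ i) = i.1 := fun i => i.2.choose_spec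
  let θ : AS → Set.range η × center G := fun a =>
    (⟨η a, a, rfl⟩, ⟨(a : G) * (σ ⟨η a, a, rfl⟩ : G)⁻¹, hdiv _ _ (by
      rw [hσ, mul_inv_cancel]; exact one_mem _)⟩)
  have hθ : Function.Injective θ := fun a a' e => by
    have e1 : η a = η a' := congrArg (fun p : Set.range η × center G => p.1.1) e
    have e2 : (a : G) * (σ ⟨η a, a, rfl⟩ : G)⁻¹ = (a' : G) * (σ ⟨η a', a', rfl⟩ : G)⁻¹ :=
      congrArg (fun p : Set.range η × center G => (p.2 : G)) e
    have e3 : (⟨η a, a, rfl⟩ : Set.range η) = ⟨η a', a', rfl⟩ := Subtype.ext e1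
    rw [e3] at e2
    exact Subtype.ext (mul_right_cancel e2)
  obtain ⟨⟨⟨_, a, rfl⟩, ⟨z, hz⟩⟩, hp⟩ := ((Nat.bijective_iff_injective_and_card ψ).2 ⟨hψ,
    le_antisymm (Nat.card_le_card_of_injective ψ hψ) (Nat.card_le_card_of_injective θ hθ)⟩).2 ⟨b, hb⟩
  have hp' : d⁻¹ * a * d * (a : G)⁻¹ * z = b := congrArg Subtype.val hp
  exact ⟨a, a.2, z, hz, by rw [← hp']; group⟩

/-- Elements of `A` fixing two points are central. -/
lemma B_central {u b : G} (hu : orderOf u = 2) (huM : u ∉ MS) (hb : b ∈ AS)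
    (hb' : u * b * u ∈ MS) : b ∈ center G := by
  obtain ⟨t, htS, ht, -⟩ := h.exists_invol
  have htM := (S : Subgroup G).le_normalizer htS
  have huu := mul_self hu
  have hvM : u * t * u ∉ MS := fun hm =>
    huM (se_mem' h.se ht htM (by rwa [inv_self hu]))
  have hv : orderOf (u * t * u) = 2 := by
    have := (orderOf_conj u t).trans ht
    rwa [inv_self hu] at this
  have hcomm : u * b * u * (u * t * u) = u * t * u * (u * b * u) := by
    rw [← conj_mul huu, (h.mem_A_iff ht htS).1 hb, conj_mul huu]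
  obtain ⟨d, hd, hdu, hda⟩ := h.exists_K hu huM hb'
  by_cases hd1 : d = 1
  · rw [hd1, inv_one, one_mul] at hda
    refine h.key hb hvM ?_
    have hc : u * b * u * t = t * (u * b * u) := (h.mem_A_iff ht htS).1 hda
    have := congrArg (fun g => u * g * u) hc
    simp only [conj_mul huu (u * b * u) t, conj_mul huu t (u * b * u), conj_conj huu] at this
    exact this.symm
  exfalso
  obtain ⟨a, ha, w, hw, e⟩ := h.coset_conj hu huM hd hdu hd1 hda
  rw [mul_inv_cancel_left] at e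
  have hdc : a⁻¹ * (u * t * u) * a * d = d * (a⁻¹ * (u * t * u) * a) := by
    refine mul_right_cancel (b := w) ?_
    have e' : d * w = a⁻¹ * (u * b * u) * a := by
      rw [e]
      calc d * w = a⁻¹ * (a * d * (w * a⁻¹)) * a := by group
        _ = a⁻¹ * (a * d * a⁻¹ * w) * a := by rw [← mul_swap_central hw a⁻¹]; group
    rw [mul_assoc (a⁻¹ * (u * t * u) * a), e',
      mul_assoc d (a⁻¹ * (u * t * u) * a) w, mul_swap_central hw (a⁻¹ * (u * t * u) * a),
      ← mul_assoc d w, e']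
    calc a⁻¹ * (u * t * u) * a * (a⁻¹ * (u * b * u) * a)
        = a⁻¹ * (u * t * u * (u * b * u)) * a := by group
      _ = _ := by rw [← hcomm]; group
  refine h.no_inv_cent hu (h.D_odd hu huM hd (by rw [hdu]; exact inv_mem hd)) hd1 hdu
    (v := a⁻¹ * (u * t * u) * a) ?_ hdc
  have := (orderOf_conj a⁻¹ (u * t * u)).trans hv
  rwa [inv_inv] at this

lemma decomp {u m : G} (hu : orderOf u = 2) (huM : u ∉ MS) (h1 : m ∈ MS) (h2 : u * m * u ∈ MS) :
    ∃ d ∈ MS, u * d * u = d⁻¹ ∧ ∃ w ∈ center G, m = d * w := by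
  obtain ⟨d, hd, hdu, hda⟩ := h.exists_K hu huM h1
  refine ⟨d, hd, hdu, d⁻¹ * m, h.B_central hu huM hda ?_, (mul_inv_cancel_left d m).symm⟩
  rw [conj_mul (mul_self hu), conj_inv' (mul_self hu), hdu, inv_inv]
  exact mul_mem hd h2

lemma D_inverts {u m : G} (hu : orderOf u = 2) (huM : u ∉ MS) (h1 : m ∈ MS)
    (h2 : u * m * u ∈ MS) : ∃ w ∈ center G, u * m * u = m⁻¹ * w := by
  obtain ⟨d, -, hdu, w, hw, rfl⟩ := h.decomp hu huM h1 h2
  refine ⟨w * w, mul_mem hw hw, ?_⟩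
  rw [conj_mul (mul_self hu), hdu, conj_central (mul_self hu) hw, mul_inv_rev]
  calc d⁻¹ * w = w⁻¹ * (w * d⁻¹) * w := by group
    _ = _ := by rw [← mul_swap_central hw d⁻¹]; group

lemma D_comm {u m n : G} (hu : orderOf u = 2) (huM : u ∉ MS) (h1 : m ∈ MS) (h2 : u * m * u ∈ MS)
    (h3 : n ∈ MS) (h4 : u * n * u ∈ MS) : Star n m := by
  have huu := mul_self hu
  obtain ⟨w1, hw1, e1⟩ := h.D_inverts hu huM h1 h2
  obtain ⟨w2, hw2, e2⟩ := h.D_inverts hu huM h3 h4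
  obtain ⟨w3, hw3, e3⟩ := h.D_inverts hu huM (mul_mem h1 h3)
    (by rw [conj_mul huu]; exact mul_mem h2 h4)
  rw [conj_mul huu, e1, e2, mul_inv_rev] at e3
  have h5 : m⁻¹ * n⁻¹ * (w1 * w2) = n⁻¹ * m⁻¹ * w3 := by
    rw [← e3]
    calc m⁻¹ * n⁻¹ * (w1 * w2) = m⁻¹ * (n⁻¹ * w1) * w2 := by group
      _ = _ := by rw [mul_swap_central hw1 n⁻¹]; group
  show m * n * m⁻¹ * n⁻¹ ∈ center G
  have : m * n * m⁻¹ * n⁻¹ = w3 * (w1 * w2)⁻¹ := by
    calc m * n * m⁻¹ * n⁻¹ = m * n * (m⁻¹ * n⁻¹ * (w1 * w2)) * (w1 * w2)⁻¹ := by group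
      _ = w3 * (w1 * w2)⁻¹ := by rw [h5]; group
  rw [this]
  exact mul_mem hw3 (inv_mem (mul_mem hw1 hw2))

lemma conj_K {u m : G} (hu : orderOf u = 2) (huM : u ∉ MS) (hm : m ∈ MS) (hmA : m ∉ AS) :
    ∃ d ∈ MS, u * d * u = d⁻¹ ∧ d ≠ 1 ∧ d⁻¹ * m ∈ AS ∧
      ∃ a ∈ AS, ∃ w ∈ center G, m = a * d * a⁻¹ * w := by
  obtain ⟨d, hd, hdu, hda⟩ := h.exists_K hu huM hm
  have hd1 : d ≠ 1 := fun e => hmA (by rwa [e, inv_one, one_mul] at hda)
  obtain ⟨a, ha, w, hw, e⟩ := h.coset_conj hu huM hd hdu hd1 hda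
  rw [mul_inv_cancel_left] at e
  exact ⟨d, hd, hdu, hd1, hda, a, ha, w, hw, e⟩

lemma exists_not_A : ∃ m ∈ MS, m ∉ AS := by
  obtain ⟨t, t', ht, ht', htS, ht'S, hne⟩ := h.exists_two_invol
  obtain ⟨v, hv, hvM⟩ := h.exists_outside
  have htM := (S : Subgroup G).le_normalizer htS
  obtain ⟨m, hm, e⟩ := (S1225.result MS h.se v hv hvM t t' ht htM ht'
    ((S : Subgroup G).le_normalizer ht'S)).1
  exact ⟨m, hm.1, fun hA => hne (by rw [← e, (h.mem_A_iff ht htS).1 hA, mul_inv_cancel_right])⟩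

/-! ### The action on the cosets of `M` -/

omit h in
lemma fix_base {g : G} : g • ((1 : G) : G ⧸ MS) = ((1 : G) : G ⧸ MS) ↔ g ∈ MS := by
  rw [← MulAction.mem_stabilizer_iff, MulAction.stabilizer_quotient]

omit h in
lemma fix_swap {u g : G} (hu : orderOf u = 2) {x : G ⧸ MS}
    (hx : u • ((1 : G) : G ⧸ MS) = x) : g • x = x ↔ u * g * u ∈ MS := by
  rw [← fix_base (S := S), ← hx, mul_smul, mul_smul]
  refine ⟨fun e => by rw [e, ← mul_smul, mul_self hu, one_smul], fun e => ?_⟩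
  conv_rhs => rw [← e]
  rw [← mul_smul u u, mul_self hu, one_smul]

lemma exists_swapper {x y : G ⧸ MS} (hxy : x ≠ y) :
    ∃ i : G, orderOf i = 2 ∧ i • x = y ∧ i • y = x := by
  obtain ⟨t, htS, ht, -⟩ := h.exists_invol
  have hcount := S1224.result MS h.se x y hxy
  haveI : Nonempty {s : G // orderOf s = 2 ∧ s ∈ MS} :=
    ⟨⟨t, ht, (S : Subgroup G).le_normalizer htS⟩⟩
  have hpos : 0 < Nat.card {i : G // orderOf i = 2 ∧ i • x = y} := hcount ▸ Nat.card_pos
  obtain ⟨⟨i, hi, hix⟩⟩ := (Nat.card_pos_iff.1 hpos).1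
  exact ⟨i, hi, hix, by rw [← hix, ← mul_smul, mul_self hi, one_smul]⟩

lemma fixed_only {u : G} (hu : orderOf u = 2) (huM : u ∉ MS) {z : G ⧸ MS}
    (hz : ∀ m ∈ MS, u * m * u ∈ MS → m • z = z) :
    z = ((1 : G) : G ⧸ MS) ∨ z = u • ((1 : G) : G ⧸ MS) := by
  by_contra hcon
  push Not at hcon
  obtain ⟨hz0, hzy⟩ := hcon
  set x₀ : G ⧸ MS := ((1 : G) : G ⧸ MS) with hx₀
  have huu := mul_self hu
  obtain ⟨i, hi, hi0, hiz⟩ := h.exists_swapper (Ne.symm hz0)
  have hne' : x₀ ≠ u • z := fun e => hzy (by rw [e, ← mul_smul, huu, one_smul])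
  obtain ⟨i', hi', hi'0, hi'z⟩ := h.exists_swapper hne'
  have hiM : i ∉ MS := fun hm => hz0 (hi0.symm.trans (fix_base.2 hm))
  have hi'M : i' ∉ MS := fun hm => hne' ((fix_base.2 hm).symm.trans hi'0)
  set c := i' * u * i with hc
  have hcM : c ∈ MS := fix_base.1 (by
    show c • x₀ = x₀
    rw [hc, mul_smul, mul_smul, hi0, hi'z])
  have hcentral : ∀ m ∈ MS, u * m * u ∈ MS → m ∈ center G := by
    intro m h1 h2
    have hm_i : i * m * i ∈ MS := (fix_swap hi hi0).1 (hz m h1 h2)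
    have hm' : i' * (u * m * u) * i' ∈ MS := (fix_swap hi' hi'0).1 (by
      rw [mul_smul, mul_smul, ← mul_smul u u, huu, one_smul, hz m h1 h2])
    obtain ⟨w₁, hw₁, e₁⟩ := h.D_inverts hi hiM h1 hm_i
    obtain ⟨w₂, hw₂, e₂⟩ := h.D_inverts hi' hi'M h2 hm'
    obtain ⟨w₀, hw₀, e₀⟩ := h.D_inverts hu huM h1 h2
    have hwc : w₂⁻¹ * w₁ * w₀ ∈ center G := mul_mem (mul_mem (inv_mem hw₂) hw₁) hw₀
    have ec : c * m * c⁻¹ = m⁻¹ * (w₀ * (w₂⁻¹ * w₁)) := by
      calc c * m * c⁻¹ = i' * (u * (i * m * i) * u) * i' := by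
            rw [hc, mul_inv_rev, mul_inv_rev, inv_self hi, inv_self hu, inv_self hi']; group
        _ = (i' * (u * m * u) * i')⁻¹ * w₁ := by
            rw [e₁, conj_mul huu, conj_central huu hw₁, conj_inv' huu,
              conj_mul (mul_self hi'), conj_central (mul_self hi') hw₁, conj_inv' (mul_self hi')]
        _ = w₂⁻¹ * (u * m * u) * w₁ := by rw [e₂, mul_inv_rev, inv_inv]
        _ = (u * m * u) * (w₂⁻¹ * w₁) := by
            rw [← mul_swap_central (inv_mem hw₂) (u * m * u)]; group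
        _ = _ := by rw [e₀]; group
    have hA : c * m * c⁻¹ * m⁻¹ ∈ AS := by
      obtain ⟨d, hd, hdu, hda⟩ := h.exists_K hu huM hcM
      have e : c * m * c⁻¹ * m⁻¹ = d * ((d⁻¹ * c) * (m * (d⁻¹ * c)⁻¹ * m⁻¹)) * d⁻¹ *
          (d * m * d⁻¹ * m⁻¹) := by group
      rw [e]
      exact mul_mem (Hyp.conj_mem_A hd (mul_mem hda (Hyp.conj_mem_A h1 (inv_mem hda))))
        (h.center_mem_A (h.D_comm hu huM hd (by rw [hdu]; exact inv_mem hd) h1 h2))
    rw [ec] at hA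
    have hwz : w₀ * (w₂⁻¹ * w₁) ∈ center G := mul_mem hw₀ (mul_mem (inv_mem hw₂) hw₁)
    have e3 : m⁻¹ * (w₀ * (w₂⁻¹ * w₁)) * m⁻¹ = (m * m)⁻¹ * (w₀ * (w₂⁻¹ * w₁)) := by
      rw [mul_assoc m⁻¹ _ m⁻¹, ← mul_swap_central hwz m⁻¹]; group
    rw [e3] at hA
    have hmm : m * m ∈ AS :=
      inv_mem_iff.1 ((Subgroup.mul_mem_cancel_right _ (h.center_mem_A hwz)).1 hA)
    have hmmc := h.B_central hu huM hmm (by rw [conj_mul huu]; exact mul_mem h2 h2)
    obtain ⟨j, hj⟩ := h.D_odd hu huM h1 h2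
    have : m = (m * m) ^ (j + 1) := by
      rw [← pow_two, ← pow_mul, show 2 * (j + 1) = orderOf m + 1 by omega, pow_succ,
        pow_orderOf_eq_one, one_mul]
    rw [this]
    exact pow_mem hmmc _
  obtain ⟨m, hm, hmA⟩ := h.exists_not_A
  obtain ⟨d, hd, hdu, hd1, -⟩ := h.conj_K hu huM hm hmA
  have hdc := hcentral d hd (by rw [hdu]; exact inv_mem hd)
  rw [conj_central huu hdc] at hdu
  exact hd1 (h.center_eq_one hdc (eq_inv_iff_mul_eq_one.1 hdu))

lemma A_fix {u a : G} (hu : orderOf u = 2) (huM : u ∉ MS) (ha : a ∈ AS)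
    (hfix : a • (u • ((1 : G) : G ⧸ MS)) = u • ((1 : G) : G ⧸ MS)) : a ∈ center G :=
  h.B_central hu huM ha ((fix_swap hu rfl).1 hfix)

omit h in
lemma center_fix {w : G} (hw : w ∈ center G) (hwM : w ∈ MS) (x : G ⧸ MS) : w • x = x := by
  induction x using QuotientGroup.induction_on with
  | H g =>
    rw [MulAction.Quotient.smul_mk, smul_eq_mul, QuotientGroup.eq, ← mul_swap_central hw g,
      mul_inv_rev, inv_mul_cancel_right]
    exact inv_mem hwM

lemma transitive {u : G} (hu : orderOf u = 2) (huM : u ∉ MS) {z : G ⧸ MS}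
    (hz : z ≠ ((1 : G) : G ⧸ MS)) : ∃ a ∈ AS, a • (u • ((1 : G) : G ⧸ MS)) = z := by
  set x₀ : G ⧸ MS := ((1 : G) : G ⧸ MS) with hx₀
  obtain ⟨i, hi, hi0, -⟩ := h.exists_swapper hz.symm
  have hiM : i ∉ MS := fun hm => hz (hi0.symm.trans (fix_base.2 hm))
  obtain ⟨m₀, hm₀, hm₀A⟩ := h.exists_not_A
  obtain ⟨m, hm, hmi, hmA⟩ := h.exists_K hi hiM hm₀
  have hmnA : m ∉ AS := fun hc => hm₀A (by
    have := mul_mem hc hmA
    rwa [mul_inv_cancel_left] at this)
  obtain ⟨d, hd, hdu, hd1, -, a, ha, w, hw, e⟩ := h.conj_K hu huM hm hmnA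
  have hmz : m • z = z := (fix_swap hi hi0).2 (by rw [hmi]; exact inv_mem hm)
  have hwM : w ∈ MS := Hyp.A_le_M (h.center_mem_A hw)
  set z' := a⁻¹ • z with hz'
  have hdz : d • z' = z' := by
    have hd' : d = a⁻¹ * m * w⁻¹ * a := by rw [e]; group
    have hamz : (w⁻¹ * a) • z' = z := by
      rw [mul_smul, hz', smul_inv_smul, center_fix (inv_mem hw) (inv_mem hwM)]
    rw [hd', mul_assoc, mul_smul, hamz, mul_smul, hmz]
  have hz'0 : z' ≠ x₀ := fun e0 => hz (by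
    rw [← smul_inv_smul a z, ← hz', e0]; exact fix_base.2 (Hyp.A_le_M ha))
  obtain ⟨i', hi', hi'0, -⟩ := h.exists_swapper hz'0.symm
  have hi'M : i' ∉ MS := fun hm' => hz'0 (hi'0.symm.trans (fix_base.2 hm'))
  have hall : ∀ n ∈ MS, u * n * u ∈ MS → n • z' = z' := by
    intro n h1 h2
    obtain ⟨n', hn', hn'i, hnA⟩ := h.exists_K hi' hi'M h1
    have hn'z : n' • z' = z' := (fix_swap hi' hi'0).2 (by rw [hn'i]; exact inv_mem hn')
    have hdi : i' * d * i' ∈ MS := (fix_swap hi' hi'0).1 hdz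
    have s1 : Star d n' := h.D_comm hi' hi'M hn' (by rw [hn'i]; exact inv_mem hn') hd hdi
    have s2 : Star d n := h.D_comm hu huM h1 h2 hd (by rw [hdu]; exact inv_mem hd)
    have hc : n'⁻¹ * n ∈ center G :=
      h.K_star hu huM hd hdu hd1 hnA (s1.inv.mul s2)
    calc n • z' = (n' * (n'⁻¹ * n)) • z' := by rw [mul_inv_cancel_left]
      _ = z' := by rw [mul_smul, center_fix hc (Hyp.A_le_M hnA), hn'z]
  rcases h.fixed_only hu huM hall with e0 | e0
  · exact absurd e0 hz'0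
  · exact ⟨a, ha, by rw [← e0, hz', smul_inv_smul]⟩

lemma three_fix {u g a : G} (hu : orderOf u = 2) (huM : u ∉ MS) (ha : a ∈ AS)
    (h1 : g • ((1 : G) : G ⧸ MS) = ((1 : G) : G ⧸ MS))
    (h2 : g • (u • ((1 : G) : G ⧸ MS)) = u • ((1 : G) : G ⧸ MS))
    (hane : a • (u • ((1 : G) : G ⧸ MS)) ≠ u • ((1 : G) : G ⧸ MS))
    (h3 : g • (a • (u • ((1 : G) : G ⧸ MS))) = a • (u • ((1 : G) : G ⧸ MS))) :
    g ∈ center G := by
  set y₀ : G ⧸ MS := u • ((1 : G) : G ⧸ MS) with hy₀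
  have hgM : g ∈ MS := fix_base.1 h1
  have hgu : u * g * u ∈ MS := (fix_swap hu rfl).1 h2
  have hg' : a⁻¹ * g * a ∈ MS :=
    mul_mem (mul_mem (inv_mem (Hyp.A_le_M ha)) hgM) (Hyp.A_le_M ha)
  have hg'u : u * (a⁻¹ * g * a) * u ∈ MS := (fix_swap hu rfl).1 (by
    rw [mul_smul, mul_smul, ← hy₀, h3, inv_smul_smul])
  have huu := mul_self hu
  have hk : a⁻¹ * g * a * g⁻¹ ∈ center G := by
    refine h.B_central hu huM ?_ ?_
    · rw [show a⁻¹ * g * a * g⁻¹ = a⁻¹ * (g * a * g⁻¹) by group]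
      exact mul_mem (inv_mem ha) (Hyp.conj_mem_A hgM ha)
    · rw [conj_mul huu, conj_inv' huu]; exact mul_mem hg'u (inv_mem hgu)
  obtain ⟨d, hd, hdu, w, hw, rfl⟩ := h.decomp hu huM hgM hgu
  by_cases hd1 : d = 1
  · rw [hd1, one_mul]; exact hw
  exfalso
  refine hane ?_
  have hs : Star d a⁻¹ := by
    show a⁻¹ * d * a⁻¹⁻¹ * d⁻¹ ∈ center G
    rw [inv_inv]
    rwa [show a⁻¹ * (d * w) * a * (d * w)⁻¹ = a⁻¹ * d * (w * a) * w⁻¹ * d⁻¹ by group,
      ← mul_swap_central hw a, show a⁻¹ * d * (a * w) * w⁻¹ * d⁻¹ = a⁻¹ * d * a * d⁻¹ by group] at hk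
  have hac : a ∈ center G :=
    inv_mem_iff.1 (h.K_star hu huM hd hdu hd1 (inv_mem ha) hs)
  exact center_fix hac (Hyp.A_le_M ha) y₀

end MHyp

end Cfsg.Agent.Lib.AbInvCent
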