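import Cfsg.Agent.Lib.AbInvCent.Max
import Cfsg.Agent.Lib.TICount.CaseB
import Cfsg.Agent.Lib.Zass.Struct
import Cfsg.Agent.Lib.ZassFrob.Basic

/-!
With a maximal Sylow 2-normaliser the quotient by the centre is a Zassenhaus group, so the
centraliser of an involution is an elementary abelian 2-group times the centre (helper3).
-/

set_option autoImplicit false

namespace Cfsg.Agent.Lib.AbInvCent

open Subgroup MulAction Cfsg.Agent.Lib.Involution

universe u

variable {G : Type u} [Group G] [Finite G]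

namespace MHyp

variable {S : Sylow 2 G} (h : MHyp S)
include h

local notation "MS" => normalizer ((S : Subgroup G) : Set G)
local notation "AS" => centralizer ((S : Subgroup G) : Set G)

lemma K_unique {u d d' : G} (hu : orderOf u = 2) (hdu : u * d * u = d⁻¹) (hd'u : u * d' * u = d'⁻¹)
    (hc : d⁻¹ * d' ∈ center G) : d = d' := by
  have huu := mul_self hu
  set w := d⁻¹ * d' with hw
  have h1 : d' = d * w := (mul_inv_cancel_left d d').symm
  rw [h1, conj_mul huu, hdu, conj_central huu hc, mul_inv_rev,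
    ← mul_swap_central (inv_mem hc) (d⁻¹)] at hd'u
  have h2 := h.center_eq_one hc (eq_inv_iff_mul_eq_one.1 (mul_left_cancel hd'u))
  rw [h1, h2, mul_one]

lemma exists_m {t s : G} (ht : orderOf t = 2) (htM : t ∈ MS) (hs : orderOf s = 2) (hsM : s ∈ MS) :
    ∃ m ∈ MS, m * t * m⁻¹ = s := by
  obtain ⟨v, hv, hvM⟩ := h.exists_outside
  obtain ⟨m, hm, e⟩ := (S1225.result MS h.se v hv hvM t s ht htM hs hsM).1
  exact ⟨m, hm.1, e⟩

theorem structure_of_max :
    (∀ a ∈ AS, ∃ s ∈ (S : Subgroup G), s * s = 1 ∧ ∃ w ∈ center G, a = s * w) ∧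
      Odd (Nat.card (G ⧸ MS)) := by
  classical
  obtain ⟨u, hu, huM⟩ := h.exists_outside
  obtain ⟨t, htS, ht, -⟩ := h.exists_invol
  have htM := (S : Subgroup G).le_normalizer htS
  have huu := mul_self hu
  let hker : center G ≤ (MulAction.toPermHom G (G ⧸ MS)).ker := fun w hw => by
    rw [MonoidHom.mem_ker]
    ext x
    exact center_fix hw (Hyp.A_le_M (h.center_mem_A hw)) x
  letI : MulAction (G ⧸ center G) (G ⧸ MS) :=
    MulAction.compHom _ (QuotientGroup.lift (center G) (MulAction.toPermHom G (G ⧸ MS)) hker)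
  have hsm : ∀ (g : G) (x : G ⧸ MS), ((g : G ⧸ center G)) • x = g • x := fun g x => rfl
  haveI := Fintype.ofFinite (G ⧸ MS)
  set x₀ : G ⧸ MS := ((1 : G) : G ⧸ MS) with hx₀
  set y₀ : G ⧸ MS := u • x₀ with hy₀
  have hne : x₀ ≠ y₀ := fun e => huM (fix_base.1 e.symm)
  have hone : ∀ g : G, g ∈ center G → ((g : G ⧸ center G)) = 1 := fun g hg =>
    (QuotientGroup.eq_one_iff g).2 hg
  set AB := (AS).map (QuotientGroup.mk' (center G)) with hAB
  have hAfix : ∀ a ∈ AS, a • x₀ = x₀ := fun a ha => fix_base.2 (Hyp.A_le_M ha)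
  have hreg : ∀ y : G ⧸ MS, y ≠ x₀ → ∃! q : AB, (q : G ⧸ center G) • y₀ = y := by
    intro y hy
    obtain ⟨a, ha, hay⟩ := h.transitive hu huM hy
    refine ⟨⟨(a : G ⧸ center G), a, ha, rfl⟩, hay, ?_⟩
    rintro ⟨_, a', ha', rfl⟩ e
    have e' : a' • y₀ = y := e
    refine Subtype.ext (QuotientGroup.eq.2 ?_)
    refine h.A_fix hu huM (mul_mem (inv_mem ha') ha) ?_
    rw [mul_smul, hay, ← e', inv_smul_smul]
  have hK : Lib.Zass.IsKernel AB x₀ y₀ := by
    refine ⟨hne, ?_, ?_, hreg⟩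
    · rintro _ ⟨a, ha, rfl⟩
      exact (hsm a x₀).trans (hAfix a ha)
    · intro q hq
      induction q using QuotientGroup.induction_on with
      | H g =>
        rintro _ ⟨a, ha, rfl⟩
        have hgM : g ∈ MS := fix_base.1 ((hsm g x₀).symm.trans hq)
        exact ⟨g * a * g⁻¹, Hyp.conj_mem_A hgM ha, by simp⟩
  have h2t : IsMultiplyPretransitive (G ⧸ center G) (G ⧸ MS) 2 := by
    refine is_two_pretransitive_iff.2 ?_
    have key : ∀ x y : G ⧸ MS, x ≠ y → ∃ g : G ⧸ center G, g • x = x₀ ∧ g • y = y₀ := by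
      intro x y hxy
      obtain ⟨g, hg⟩ := MulAction.exists_smul_eq G x x₀
      obtain ⟨a, ha, hay⟩ := h.transitive hu huM (z := g • y)
        fun e => hxy (MulAction.injective g (hg.trans e.symm))
      refine ⟨((a⁻¹ * g : G) : G ⧸ center G), ?_, ?_⟩
      · rw [hsm, mul_smul, hg, inv_smul_eq_iff, hAfix a ha]
      · rw [hsm, mul_smul, ← hay, inv_smul_smul]
    intro x x' y y' hx hy
    obtain ⟨g, hg, hg'⟩ := key x x' hx
    obtain ⟨k, hk, hk'⟩ := key y y' hy
    exact ⟨k⁻¹ * g, by rw [mul_smul, hg, ← hk, inv_smul_smul],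
      by rw [mul_smul, hg', ← hk', inv_smul_smul]⟩
  have hfree : ∀ q ∈ stabilizer (G ⧸ center G) x₀ ⊓ stabilizer (G ⧸ center G) y₀,
      ∀ y, y ≠ x₀ → y ≠ y₀ → q • y = y → q = 1 := by
    intro q hq y hy hyy hqy
    induction q using QuotientGroup.induction_on with
    | H g =>
      obtain ⟨a, ha, rfl⟩ := h.transitive hu huM hy
      exact hone g (h.three_fix hu huM ha ((hsm g x₀).symm.trans hq.1)
        ((hsm g y₀).symm.trans hq.2) hyy ((hsm g _).symm.trans hqy))
  obtain ⟨m₀, hm₀, hm₀A⟩ := h.exists_not_A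
  obtain ⟨d₀, hd₀, hd₀u, hd₀1, -⟩ := h.conj_K hu huM hm₀ hm₀A
  have hd₀c : d₀ ∉ center G := fun hc => by
    have e := hd₀u
    rw [conj_central huu hc] at e
    exact hd₀1 (h.center_eq_one hc (eq_inv_iff_mul_eq_one.1 e))
  have hZ : Cfsg.IsZassenhausGroup (G ⧸ center G) (G ⧸ MS) := by
    refine ⟨⟨?_⟩, h2t, ?_, ⟨(d₀ : G ⧸ center G), fun e => hd₀c ((QuotientGroup.eq_one_iff d₀).1 e),
      x₀, y₀, hne, fix_base.2 hd₀, ?_⟩, ?_⟩
    · -- faithful
      intro q q' e
      have hq : ∀ y : G ⧸ MS, (q'⁻¹ * q) • y = y := fun y => by rw [mul_smul, e, inv_smul_smul]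
      obtain ⟨a, ha, hane⟩ : ∃ a ∈ AS, a • y₀ ≠ y₀ := by
        refine ⟨t, h.S_le_A htS, fun e => ?_⟩
        exact h.center_invol (h.A_fix hu huM (h.S_le_A htS) e) ht
      refine (inv_mul_eq_one.1 (hfree _ ⟨hq x₀, hq y₀⟩ (a • y₀) ?_ hane (hq _))).symm
      intro e0
      exact hne.symm (MulAction.injective a (e0.trans (hAfix a ha).symm))
    · intro g a b c hab hbc hac ha hb hc
      obtain ⟨k, hka, hkb⟩ := (is_two_pretransitive_iff.1 h2t) hab hne
      have hfix : ∀ p : G ⧸ MS, g • p = p → (k * g * k⁻¹) • (k • p) = k • p := fun p hp => by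
        rw [mul_smul, inv_smul_smul, mul_smul, hp]
      have e1 := hfix a ha
      have e2 := hfix b hb
      rw [hka] at e1; rw [hkb] at e2
      exact conj_eq_one_iff.1 (hfree (k * g * k⁻¹) ⟨e1, e2⟩ (k • c)
        (fun e => hac (MulAction.injective k (hka.trans e.symm)))
        (fun e => hbc (MulAction.injective k (hkb.trans e.symm))) (hfix c hc))
    · exact (hsm d₀ y₀).trans ((fix_swap hu rfl).2 (by rw [hd₀u]; exact inv_mem hd₀))
    · -- no regular normal subgroup
      intro N hN htr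
      by_contra hcon
      push Not at hcon
      have hNfree : ∀ r ∈ N, ∀ y : G ⧸ MS, r • y = y → r = 1 := fun r hr y hy =>
        congrArg Subtype.val ((Subgroup.eq_bot_iff_forall _).1 (hcon y) ⟨r, hr⟩ hy)
      have hinvert : ∀ s : G, orderOf s = 2 → s ∈ (S : Subgroup G) → ∀ r ∈ N,
          (s : G ⧸ center G) * r * (s : G ⧸ center G) = r⁻¹ := by
        intro s hs hsS r hr
        have hs2 : orderOf ((s : G ⧸ center G)) = 2 := orderOf_two_of
          (by rw [← QuotientGroup.mk_mul, mul_self hs, QuotientGroup.mk_one])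
          fun e => h.center_invol ((QuotientGroup.eq_one_iff s).1 e) hs
        refine TICount.inverts_of_free hs2 (fun x hx => ?_) (fun x hx hc => ?_) hr
        · have := hN.conj_mem x hx (s : G ⧸ center G)
          rwa [TICount.inv_self hs2] at this
        refine hNfree x hx x₀ ?_
        have hsx : (s : G ⧸ center G) • x • x₀ = x • x₀ := by
          rw [← mul_smul, hc, mul_smul]
          congr 1
          exact (hsm s x₀).trans (hAfix s (h.S_le_A hsS))
        by_contra hx0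
        obtain ⟨a, ha, hay⟩ := h.transitive hu huM hx0
        refine h.center_invol (h.A_fix hu huM (h.S_le_A hsS) ?_) hs
        have hsa : s * a = a * s := h.comm_A (h.S_le_A hsS) ha
        rw [← hay, hsm, ← mul_smul, hsa, mul_smul] at hsx
        exact MulAction.injective a hsx
      obtain ⟨t₁, t₂, ht₁, ht₂, ht₁S, ht₂S, h12⟩ := h.exists_two_invol
      have h3 : orderOf (t₁ * t₂) = 2 := orderOf_two_of
        (by rw [mul_assoc, ← mul_assoc t₂, h.comm ht₂S ht₁S, mul_assoc t₁ t₂, mul_self ht₂, mul_one,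
          mul_self ht₁])
        (fun e => h12 ((eq_inv_of_mul_eq_one_left e).trans (Involution.inv_self ht₂)))
      have hsq : ∀ r ∈ N, r * r = 1 := by
        intro r hr
        have e3 := hinvert _ h3 (mul_mem ht₁S ht₂S) r hr
        have e4 : ((t₁ * t₂ : G) : G ⧸ center G) * r * ((t₁ * t₂ : G) : G ⧸ center G) = r := by
          nth_rewrite 2 [h.comm ht₁S ht₂S]
          rw [QuotientGroup.mk_mul, QuotientGroup.mk_mul]
          calc (t₁ : G ⧸ center G) * t₂ * r * ((t₂ : G ⧸ center G) * t₁)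
              = (t₁ : G ⧸ center G) * ((t₂ : G ⧸ center G) * r * t₂) * t₁ := by group
            _ = r := by rw [hinvert _ ht₂ ht₂S r hr, hinvert _ ht₁ ht₁S _ (inv_mem hr), inv_inv]
        rw [← eq_inv_iff_mul_eq_one]
        exact e4.symm.trans e3
      obtain ⟨r, hr, hr0⟩ : ∃ r ∈ N, r • x₀ = y₀ := by
        obtain ⟨r, hr⟩ := htr.exists_smul_eq x₀ y₀
        exact ⟨(r : G ⧸ center G), r.2, hr⟩
      have hr1 : r ≠ 1 := fun e => hne (by rw [← hr0, e, one_smul])
      -- `r` is an involution commuting with the image of an involution of `S`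
      have hrt : (t : G ⧸ center G) * r = r * (t : G ⧸ center G) := by
        have e := hinvert t ht htS r hr
        rw [inv_eq_of_mul_eq_one_right (hsq r hr)] at e
        have htt : (t : G ⧸ center G) * t = 1 := by
          rw [← QuotientGroup.mk_mul, mul_self ht, QuotientGroup.mk_one]
        calc (t : G ⧸ center G) * r = t * r * (t * t) := by rw [htt, mul_one]
          _ = (t * r * t) * t := by group
          _ = _ := by rw [e]
      have hty : t • y₀ = y₀ := by
        rw [← hsm, ← hr0, ← mul_smul, hrt, mul_smul, hsm, hAfix t (h.S_le_A htS)]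
      exact h.center_invol (h.A_fix hu huM (h.S_le_A htS) hty) ht
  -- the two-point stabiliser
  set I := {s : G // orderOf s = 2 ∧ s ∈ MS} with hI
  set DB := stabilizer (G ⧸ center G) x₀ ⊓ stabilizer (G ⧸ center G) y₀ with hDB
  have hDcard : Nat.card DB = Nat.card I := by
    let Kt := {d : G // d ∈ MS ∧ u * d * u = d⁻¹}
    have e1 : Nat.card Kt = Nat.card DB := by
      refine Nat.card_eq_of_bijective (fun d : Kt => (⟨(d.1 : G ⧸ center G), fix_base.2 d.2.1,
        (fix_swap hu rfl).2 (by rw [d.2.2]; exact inv_mem d.2.1)⟩ : DB)) ⟨?_, ?_⟩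
      · intro d d' e
        exact Subtype.ext (h.K_unique hu d.2.2 d'.2.2 (QuotientGroup.eq.1 (congrArg Subtype.val e)))
      · rintro ⟨q, hq1, hq2⟩
        induction q using QuotientGroup.induction_on with
        | H g =>
          obtain ⟨d, hd, hdu, w, hw, rfl⟩ := h.decomp hu huM
            (fix_base.1 ((hsm g x₀).symm.trans hq1)) ((fix_swap hu rfl).1 ((hsm g y₀).symm.trans hq2))
          refine ⟨⟨d, hd, hdu⟩, Subtype.ext ?_⟩
          show (d : G ⧸ center G) = ((d * w : G) : G ⧸ center G)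
          rw [QuotientGroup.mk_mul, hone w hw, mul_one]
    have e2 : Nat.card Kt = Nat.card I := by
      refine Nat.card_eq_of_bijective (fun d : Kt => (⟨d.1 * t * d.1⁻¹,
        (Involution.orderOf_conj _ _).trans ht, mul_mem (mul_mem d.2.1 htM) (inv_mem d.2.1)⟩ : I)) ⟨?_, ?_⟩
      · intro d d' e
        have e' : d.1 * t * d.1⁻¹ = d'.1 * t * d'.1⁻¹ := congrArg Subtype.val e
        refine Subtype.ext (h.K_unique hu d.2.2 d'.2.2 (h.B_central hu huM ?_ ?_))
        · refine (h.mem_A_iff ht htS).2 ?_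
          calc d.1⁻¹ * d'.1 * t = d.1⁻¹ * (d'.1 * t * d'.1⁻¹) * d'.1 := by group
            _ = _ := by rw [← e']; group
        · rw [conj_mul huu, conj_inv' huu, d.2.2, d'.2.2, inv_inv]
          exact mul_mem d.2.1 (inv_mem d'.2.1)
      · rintro ⟨s, hs, hsM⟩
        obtain ⟨m, hm, e⟩ := h.exists_m ht htM hs hsM
        obtain ⟨d, hd, hdu, hda⟩ := h.exists_K hu huM hm
        refine ⟨⟨d, hd, hdu⟩, Subtype.ext ?_⟩
        have hct := (h.mem_A_iff ht htS).1 hda
        show d * t * d⁻¹ = s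
        rw [← e]
        calc d * t * d⁻¹ = d * (t * (d⁻¹ * m)) * m⁻¹ := by group
          _ = d * (d⁻¹ * m * t) * m⁻¹ := by rw [← hct]
          _ = _ := by group
    rw [← e1, e2]
  have hUc : IsMulCommutative AB := ⟨⟨fun p q => by
    obtain ⟨_, a, ha, rfl⟩ := p
    obtain ⟨_, a', ha', rfl⟩ := q
    refine Subtype.ext ?_
    show ((a * a' : G) : G ⧸ center G) = ((a' * a : G) : G ⧸ center G)
    rw [h.comm_A ha ha']⟩⟩
  have hle := (Lib.Zass.abelian_kernel_struct hZ hK hUc).1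
  obtain ⟨c, hc⟩ := ZassFrob.card_twoPt_dvd hZ hne
  have hcard := hK.card_eq
  rw [← hDB, hDcard] at hle hc
  have hIpos : 0 < Nat.card I := by
    haveI : Nonempty I := ⟨⟨t, ht, htM⟩⟩
    exact Nat.card_pos
  -- the kernel has even order
  obtain ⟨i, hi⟩ : 2 ∣ Nat.card AB := by
    have ht2 : orderOf ((⟨(t : G ⧸ center G), t, h.S_le_A htS, rfl⟩ : AB)) = 2 := by
      rw [← Subgroup.orderOf_coe]
      exact orderOf_two_of (by rw [← QuotientGroup.mk_mul, mul_self ht, QuotientGroup.mk_one])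
        fun e => h.center_invol ((QuotientGroup.eq_one_iff t).1 e) ht
    rw [← ht2]
    exact orderOf_dvd_natCard _
  have hi0 : 0 < Nat.card AB := Nat.card_pos
  have hABc : Nat.card AB = Nat.card I + 1 := by
    rcases c with _ | _ | c
    · omega
    · omega
    · exfalso
      rw [← hcard, mul_add, mul_add] at hc
      omega
  refine ⟨fun a ha => ?_, ⟨i, by omega⟩⟩
  let g : Option I → AB := fun o => match o with
    | none => 1
    | some s => ⟨(s.1 : G ⧸ center G), s.1, h.invol_mem_A s.2.1 s.2.2, rfl⟩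
  have hg : Function.Injective g := by
    rintro (_ | s) (_ | s') e
    · rfl
    · exact absurd ((QuotientGroup.eq_one_iff s'.1).1 (congrArg Subtype.val e).symm)
        fun hc => h.center_invol hc s'.2.1
    · exact absurd ((QuotientGroup.eq_one_iff s.1).1 (congrArg Subtype.val e))
        fun hc => h.center_invol hc s.2.1
    · have hw : s.1⁻¹ * s'.1 ∈ center G := QuotientGroup.eq.1 (congrArg Subtype.val e)
      refine congrArg some (Subtype.ext (inv_mul_eq_one.1 (h.center_eq_one hw ?_)))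
      rw [Involution.inv_self s.2.1, mul_assoc, ← mul_assoc s'.1,
        h.comm (Hyp.mem_S_of_invol s'.2.1 s'.2.2) (Hyp.mem_S_of_invol s.2.1 s.2.2), mul_assoc s.1,
        mul_self s'.2.1, mul_one, mul_self s.2.1]
  haveI := Fintype.ofFinite I
  have hgb : Function.Bijective g := (Nat.bijective_iff_injective_and_card g).2 ⟨hg, by
    rw [hABc, Nat.card_eq_fintype_card, Fintype.card_option, Nat.card_eq_fintype_card]⟩
  obtain ⟨o, ho⟩ := hgb.2 ⟨(a : G ⧸ center G), a, ha, rfl⟩
  rcases o with _ | s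
  · refine ⟨1, one_mem _, one_mul 1, a, ?_, (one_mul a).symm⟩
    exact (QuotientGroup.eq_one_iff a).1 (congrArg Subtype.val ho).symm
  · exact ⟨s.1, Hyp.mem_S_of_invol s.2.1 s.2.2, mul_self s.2.1, s.1⁻¹ * a,
      QuotientGroup.eq.1 (congrArg Subtype.val ho), (mul_inv_cancel_left _ _).symm⟩

/-- No odd subgroup acts transitively on all involutions. -/
theorem no_odd_transitive (W : Subgroup G) (hWodd : Odd (Nat.card W))
    (hW : ∀ s s' : G, orderOf s = 2 → orderOf s' = 2 → ∃ w ∈ W, w * s * w⁻¹ = s') : False := by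
  classical
  obtain ⟨hA, hodd⟩ := h.structure_of_max
  obtain ⟨u, hu, huM⟩ := h.exists_outside
  obtain ⟨t₁, t₂, ht₁, ht₂, ht₁S, ht₂S, h12⟩ := h.exists_two_invol
  set x₀ : G ⧸ MS := ((1 : G) : G ⧸ MS) with hx₀
  -- a non-central element of `W ∩ M` fixes exactly one further point, as does all of `W ∩ M`
  have hbase : ∀ W : Subgroup G, Odd (Nat.card W) →
      (∀ s s' : G, orderOf s = 2 → orderOf s' = 2 → ∃ w ∈ W, w * s * w⁻¹ = s') →
      ∃ e ∈ W, e • x₀ = x₀ ∧ ∃ y, y ≠ x₀ ∧ (∀ z, e • z = z → z = x₀ ∨ z = y) ∧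
        ∀ w ∈ W, w • x₀ = x₀ → w • y = y := by
    intro W hWodd hW
    obtain ⟨e, heW, he⟩ := hW t₁ t₂ ht₁ ht₂
    have htM := (S : Subgroup G).le_normalizer ht₁S
    have heM : e ∈ MS := se_mem' h.se ht₁ htM (by rw [he]; exact (S : Subgroup G).le_normalizer ht₂S)
    have heA : e ∉ AS := fun hA' => h12 (by
      rw [← he, (h.mem_A_iff ht₁ ht₁S).1 hA', mul_inv_cancel_right])
    obtain ⟨d, hd, hdu, hd1, -, a, ha, w, hw, hew⟩ := h.conj_K hu huM heM heA
    have hdy : d • (u • x₀) = u • x₀ := (fix_swap hu rfl).2 (by rw [hdu]; exact inv_mem hd)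
    have hdc : d ∉ center G := fun hc => heA (by
      rw [hew]
      exact mul_mem (mul_mem (mul_mem ha (h.center_mem_A hc)) (inv_mem ha)) (h.center_mem_A hw))
    have hwfix : ∀ z : G ⧸ MS, e • z = a • d • a⁻¹ • z := fun z => by
      rw [hew, mul_smul, mul_smul, mul_smul, center_fix hw (Hyp.A_le_M (h.center_mem_A hw))]
    set y := a • u • x₀ with hy
    have hax : a • x₀ = x₀ := fix_base.2 (Hyp.A_le_M ha)
    have hey : e • y = y := by rw [hwfix, hy, inv_smul_smul, hdy]
    have hy0 : y ≠ x₀ := fun e0 => huM (fix_base.1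
      (MulAction.injective a (e0.trans hax.symm)))
    have hexact : ∀ z, e • z = z → z = x₀ ∨ z = y := by
      intro z hz
      by_contra hcon
      push Not at hcon
      have hdz : d • a⁻¹ • z = a⁻¹ • z := by
        rw [eq_inv_smul_iff, ← hwfix, hz]
      have hz' : a⁻¹ • z ≠ x₀ := fun e0 => hcon.1 (by rw [← smul_inv_smul a z, e0, hax])
      obtain ⟨a', ha', haz⟩ := h.transitive hu huM hz'
      refine hdc (h.three_fix hu huM ha' (fix_base.2 hd) hdy ?_ (by rw [haz, hdz]))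
      rw [haz]
      exact fun e0 => hcon.2 (by rw [← smul_inv_smul a z, e0])
    refine ⟨e, heW, fix_base.2 heM, y, hy0, hexact, fun v hvW hv0 => ?_⟩
    have hvM : v ∈ MS := fix_base.1 hv0
    -- the commutator lies in `A ∩ W`
    obtain ⟨d', hd', hd'u, hd'a⟩ := h.exists_K hu huM hvM
    have hcomm : v⁻¹ * e * v * e⁻¹ ∈ AS := by
      obtain ⟨d₁, hd₁, hd₁u, hd₁a⟩ := h.exists_K hu huM heM
      have hs : d'⁻¹ * d₁ * d' * d₁⁻¹ ∈ AS := by
        have := h.center_mem_A (h.D_comm hu huM (inv_mem hd')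
          (by rw [conj_inv' (mul_self hu), hd'u, inv_inv]; exact hd') hd₁
          (by rw [hd₁u]; exact inv_mem hd₁))
        rwa [show d'⁻¹ * d₁ * d'⁻¹⁻¹ * d₁⁻¹ = d'⁻¹ * d₁ * d' * d₁⁻¹ by group] at this
      have e1 : v⁻¹ * e * v * e⁻¹ = (d'⁻¹ * v)⁻¹ * (d'⁻¹ * d₁ * d' * d₁⁻¹) *
          (d₁ * (d'⁻¹ * (d₁⁻¹ * e) * d') * d₁⁻¹) * (d₁ * (d'⁻¹ * v) * d₁⁻¹) *
          ((d'⁻¹ * v) ⁻¹ * (d₁ * (d₁⁻¹ * e)⁻¹ * d₁⁻¹) * (d'⁻¹ * v)) *
          ((d'⁻¹ * v)⁻¹ * (d₁ * (d₁⁻¹ * e) * d₁⁻¹) * (d'⁻¹ * v) *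
            (d₁ * (d₁⁻¹ * e)⁻¹ * d₁⁻¹)) := by
        have hAc : (d'⁻¹ * v)⁻¹ * (d₁ * (d₁⁻¹ * e)⁻¹ * d₁⁻¹) * (d'⁻¹ * v)
            = d₁ * (d₁⁻¹ * e)⁻¹ * d₁⁻¹ := by
          rw [mul_assoc, h.comm_A (Hyp.conj_mem_A hd₁ (inv_mem hd₁a)) hd'a, inv_mul_cancel_left]
        have hAc2 : (d'⁻¹ * v)⁻¹ * (d₁ * (d₁⁻¹ * e) * d₁⁻¹) * (d'⁻¹ * v)
            = d₁ * (d₁⁻¹ * e) * d₁⁻¹ := by
          rw [mul_assoc, h.comm_A (Hyp.conj_mem_A hd₁ hd₁a) hd'a, inv_mul_cancel_left]
        rw [hAc, hAc2]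
        group
      rw [e1]
      have hA1 := Hyp.conj_mem_A hd₁ (Hyp.conj_mem_A' hd' hd₁a)
      have hA2 := Hyp.conj_mem_A hd₁ hd'a
      have hA3 := Hyp.conj_mem_A hd₁ (inv_mem hd₁a)
      have hA4 := Hyp.conj_mem_A hd₁ hd₁a
      exact mul_mem (mul_mem (mul_mem (mul_mem (mul_mem (inv_mem hd'a) hs) hA1) hA2)
        (mul_mem (mul_mem (inv_mem hd'a) hA3) hd'a))
        (mul_mem (mul_mem (mul_mem (inv_mem hd'a) hA4) hd'a) hA3)
    have hW' : v⁻¹ * e * v * e⁻¹ ∈ W :=
      mul_mem (mul_mem (mul_mem (inv_mem hvW) heW) hvW) (inv_mem heW)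
    obtain ⟨s, hsS, hs2, w', hw', e'⟩ := hA _ hcomm
    have hs1 : s = 1 := by
      by_contra hs1
      obtain ⟨j, hj⟩ := Odd.of_dvd_nat hWodd (Subgroup.orderOf_dvd_natCard W hW')
      have hp := pow_orderOf_eq_one (v⁻¹ * e * v * e⁻¹)
      rw [hj, e', (Commute.mul_pow (mem_center_iff.1 hw' s)), pow_succ, pow_mul, pow_two, hs2,
        one_pow, one_mul] at hp
      refine h.center_invol ?_ (orderOf_two_of hs2 hs1)
      rw [eq_inv_of_mul_eq_one_left hp]
      exact inv_mem (pow_mem hw' _)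
    rw [hs1, one_mul] at e'
    have hfix : e • (v • y) = v • y := by
      have : e * v = v * (w' * e) := by rw [← e']; group
      rw [← mul_smul, this, mul_smul, mul_smul, hey,
        center_fix hw' (Hyp.A_le_M (h.center_mem_A hw'))]
    rcases hexact _ hfix with e0 | e0
    · exact absurd (MulAction.injective v (e0.trans hv0.symm)) hy0
    · exact e0
  -- the partner of each point
  have hpartner : ∀ z : G ⧸ MS, ∃ e ∈ W, e • z = z ∧ ∃ z', z' ≠ z ∧
      (∀ p, e • p = p → p = z ∨ p = z') ∧ ∀ w ∈ W, w • z = z → w • z' = z' := by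
    intro z
    obtain ⟨g, rfl⟩ := MulAction.exists_smul_eq G x₀ z
    set W' := W.map (MulAut.conj g⁻¹).toMonoidHom with hW'
    have hmem : ∀ w, w ∈ W' ↔ g * w * g⁻¹ ∈ W := fun w => by
      rw [hW', mem_map_conj, inv_inv]
    obtain ⟨e, he, he0, y, hy, hex, hfix⟩ := hbase W' (by rw [hW', card_map_conj]; exact hWodd)
      fun s s' hs hs' => by
        obtain ⟨w, hw, e⟩ := hW _ _ ((Involution.orderOf_conj g s).trans hs)
          ((Involution.orderOf_conj g s').trans hs')
        refine ⟨g⁻¹ * w * g, (hmem _).2 (by rwa [show g * (g⁻¹ * w * g) * g⁻¹ = w by group]), ?_⟩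
        calc g⁻¹ * w * g * s * (g⁻¹ * w * g)⁻¹ = g⁻¹ * (w * (g * s * g⁻¹) * w⁻¹) * g := by group
          _ = s' := by rw [e]; group
    refine ⟨g * e * g⁻¹, (hmem e).1 he, by rw [mul_smul, mul_smul, inv_smul_smul, he0],
      g • y, fun e0 => hy (MulAction.injective g e0), fun p hp => ?_, fun w hw hw0 => ?_⟩
    · have : e • g⁻¹ • p = g⁻¹ • p := by
        rw [eq_inv_smul_iff, ← mul_smul, ← mul_smul, hp]
      rcases hex _ this with h1 | h1
      · exact Or.inl (by rw [← h1, smul_inv_smul])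
      · exact Or.inr (by rw [← h1, smul_inv_smul])
    · have h1 := hfix (g⁻¹ * w * g)
        ((hmem _).2 (by rwa [show g * (g⁻¹ * w * g) * g⁻¹ = w by group]))
        (by rw [mul_smul, mul_smul, hw0, inv_smul_smul])
      rw [mul_smul, mul_smul, inv_smul_eq_iff] at h1
      exact h1
  choose e heW hez P hPne hPex hPfix using hpartner
  have hPP : Function.Involutive P := fun z => by
    have h1 : e z • P z = P z := hPfix z (e z) (heW z) (hez z)
    have h2 : e z • P (P z) = P (P z) := hPfix (P z) (e z) (heW z) h1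
    exact (hPex z _ h2).resolve_right (hPne (P z))
  haveI := Fintype.ofFinite (G ⧸ MS)
  haveI : Fact (Nat.Prime 2) := ⟨Nat.prime_two⟩
  obtain ⟨z, hz⟩ := Equiv.Perm.exists_fixed_point_of_prime (p := 2) (n := 1)
    (σ := hPP.toPerm P) (by rw [← Nat.card_eq_fintype_card]; exact hodd.not_two_dvd_nat)
    (by ext z; simp [pow_two, Equiv.Perm.mul_apply, hPP z])
  exact hPne z hz

end MHyp

end Cfsg.Agent.Lib.AbInvCent
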